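import Cfsg.Agent.Lib.Helper14.MinIdx.Defs

set_option autoImplicit false

namespace Cfsg.Agent.Lib.Helper5.MinIdx

open Matrix Cfsg.Agent.Lib.Helper57.RootSL Cfsg.Agent.Lib.Helper14.MinIdx

variable {n : ℕ} {F : Type*} [Field F]

lemma mc_indep {v v' φ : Fin n → F} (hv : v ≠ 0) (hpar : ∀ c : F, v' ≠ c • v) (h : φ ⬝ᵥ v = 0)
    (h' : φ ⬝ᵥ v' = 0) : ∃ g : SpecialLinearGroup (Fin n) F, g * tv v φ * g⁻¹ = tv v' φ := by
  obtain ⟨χ, h1, h2⟩ := exists_dot_both hv hpar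
  have hχ : χ ⬝ᵥ (v' - v) = 0 := by rw [dotProduct_sub, h1, h2, sub_self]
  refine ⟨tv (v' - v) χ, ?_⟩
  rw [conj_tv _ h, tv_mulVec hχ, vecMul_tv_inv hχ, h1, dotProduct_sub, h, h', sub_self, zero_smul,
    sub_zero, one_smul, add_sub_cancel]

lemma ma_indep {v φ φ' : Fin n → F} (hφ : φ ≠ 0) (hpar : ∀ c : F, φ' ≠ c • φ) (h : φ ⬝ᵥ v = 0)
    (h' : φ' ⬝ᵥ v = 0) : ∃ g : SpecialLinearGroup (Fin n) F, g * tv v φ * g⁻¹ = tv v φ' := by
  obtain ⟨u, h1, h2⟩ := exists_dot_both hφ hpar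
  rw [dotProduct_comm] at h1 h2
  have hu : (φ - φ') ⬝ᵥ u = 0 := by rw [sub_dotProduct, h1, h2, sub_self]
  refine ⟨tv u (φ - φ'), ?_⟩
  rw [conj_tv _ h, tv_mulVec hu, vecMul_tv_inv hu, h1, sub_dotProduct, h, h', sub_self, zero_smul,
    add_zero, one_smul, sub_sub_cancel]

lemma conj_trans {a b c : SpecialLinearGroup (Fin n) F}
    (h1 : ∃ g : SpecialLinearGroup (Fin n) F, g * a * g⁻¹ = b)
    (h2 : ∃ g : SpecialLinearGroup (Fin n) F, g * b * g⁻¹ = c) :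
    ∃ g : SpecialLinearGroup (Fin n) F, g * a * g⁻¹ = c := by
  obtain ⟨g1, rfl⟩ := h1
  obtain ⟨g2, rfl⟩ := h2
  exact ⟨g2 * g1, by group⟩

lemma mc (hn : 3 ≤ n) {v v' φ : Fin n → F} (hv : v ≠ 0) (hv' : v' ≠ 0) (h : φ ⬝ᵥ v = 0)
    (h' : φ ⬝ᵥ v' = 0) : ∃ g : SpecialLinearGroup (Fin n) F, g * tv v φ * g⁻¹ = tv v' φ := by
  by_cases hpar : ∃ c : F, v' = c • v
  · obtain ⟨c, rfl⟩ := hpar
    have hc : c ≠ 0 := by
      rintro rfl
      exact hv' (by simp)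
    obtain ⟨θ, hθ⟩ := exists_dot_eq_one hv
    obtain ⟨u, hu, hu1, hu2⟩ := exists_common_ker (by rw [Fintype.card_fin]; omega) φ θ
    have i1 : ∀ a : F, u ≠ a • v := by
      intro a ha
      rw [ha, dotProduct_smul, hθ, smul_eq_mul, mul_one] at hu2
      rw [hu2, zero_smul] at ha
      exact hu ha
    have i2 : ∀ a : F, c • v ≠ a • u := by
      intro a ha
      have := congrArg (fun x => θ ⬝ᵥ x) ha
      simp only [dotProduct_smul, hθ, hu2, smul_eq_mul, mul_one, mul_zero] at this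
      exact hc this
    exact conj_trans (mc_indep hv i1 h hu1) (mc_indep hu i2 hu1 h')
  · push Not at hpar
    exact mc_indep hv hpar h h'

lemma ma (hn : 3 ≤ n) {v φ φ' : Fin n → F} (hφ : φ ≠ 0) (hφ' : φ' ≠ 0) (h : φ ⬝ᵥ v = 0)
    (h' : φ' ⬝ᵥ v = 0) : ∃ g : SpecialLinearGroup (Fin n) F, g * tv v φ * g⁻¹ = tv v φ' := by
  by_cases hpar : ∃ c : F, φ' = c • φ
  · obtain ⟨c, rfl⟩ := hpar
    have hc : c ≠ 0 := by
      rintro rfl
      exact hφ' (by simp)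
    obtain ⟨θ, hθ⟩ := exists_dot_eq_one hφ
    obtain ⟨u, hu, hu1, hu2⟩ := exists_common_ker (by rw [Fintype.card_fin]; omega) v θ
    have i1 : ∀ a : F, u ≠ a • φ := by
      intro a ha
      rw [ha, dotProduct_smul, hθ, smul_eq_mul, mul_one] at hu2
      rw [hu2, zero_smul] at ha
      exact hu ha
    have i2 : ∀ a : F, c • φ ≠ a • u := by
      intro a ha
      have := congrArg (fun x => θ ⬝ᵥ x) ha
      simp only [dotProduct_smul, hθ, hu2, smul_eq_mul, mul_one, mul_zero] at this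
      exact hc this
    rw [dotProduct_comm] at hu1
    exact conj_trans (ma_indep hφ i1 h hu1) (ma_indep hu i2 hu1 h')
  · push Not at hpar
    exact ma_indep hφ hpar h h'

theorem P1 {n : ℕ} {F : Type*} [Field F] (hn : 3 ≤ n) {v φ v' φ' : Fin n → F} (hv : v ≠ 0)
    (hφ : φ ≠ 0) (h : φ ⬝ᵥ v = 0) (hv' : v' ≠ 0) (hφ' : φ' ≠ 0) (h' : φ' ⬝ᵥ v' = 0) :
    ∃ g : SpecialLinearGroup (Fin n) F, g * tv v φ * g⁻¹ = tv v' φ' := by
  obtain ⟨u, hu, hu1, hu2⟩ := exists_common_ker (by rw [Fintype.card_fin]; omega) φ φ'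
  exact conj_trans (conj_trans (mc hn hv hu h hu1) (ma hn hφ hφ' hu1 hu2)) (mc hn hu hv' hu2 h')

end Cfsg.Agent.Lib.Helper5.MinIdx
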