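import Mathlib
import Cfsg.Agent.Lib.Helper5.SLGen

set_option autoImplicit false

/-! Base API for general transvections `T u φ = 1 + u φᵀ` of `SL_n(F)` (used for S2140). -/

namespace Cfsg.Agent.Lib.Helper5.MI

open Matrix

variable {n : ℕ} {F : Type*} [Field F]

lemma sl_ext {A B : Matrix.SpecialLinearGroup (Fin n) F}
    (h : (A : Matrix (Fin n) (Fin n) F) = (B : Matrix (Fin n) (Fin n) F)) : A = B := Subtype.ext h

lemma det_one_add_vecMulVec' (u φ : Fin n → F) : (1 + vecMulVec u φ).det = 1 + φ ⬝ᵥ u := by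
  rw [vecMulVec_eq (ι := Unit), det_one_add_replicateCol_mul_replicateRow]

open Classical in
/-- The transvection `1 + u φᵀ` (if `φ ⬝ᵥ u = 0`; junk value `1` otherwise). -/
noncomputable def T (u φ : Fin n → F) : Matrix.SpecialLinearGroup (Fin n) F :=
  if h : φ ⬝ᵥ u = 0 then ⟨1 + vecMulVec u φ, by rw [det_one_add_vecMulVec', h, add_zero]⟩ else 1

lemma T_coe {u φ : Fin n → F} (h : φ ⬝ᵥ u = 0) :
    (T u φ : Matrix (Fin n) (Fin n) F) = 1 + vecMulVec u φ := by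
  simp [T, h]

lemma T_of_ne {u φ : Fin n → F} (h : ¬ φ ⬝ᵥ u = 0) : T u φ = 1 := by
  unfold T; exact dif_neg h

lemma T_mulVec {u φ : Fin n → F} (h : φ ⬝ᵥ u = 0) (v : Fin n → F) :
    (T u φ : Matrix (Fin n) (Fin n) F) *ᵥ v = v + (φ ⬝ᵥ v) • u := by
  rw [T_coe h, add_mulVec, one_mulVec, vecMulVec_mulVec]
  ext i; simp [mul_comm]

lemma T_vecMul {u φ : Fin n → F} (h : φ ⬝ᵥ u = 0) (ψ : Fin n → F) :
    ψ ᵥ* (T u φ : Matrix (Fin n) (Fin n) F) = ψ + (ψ ⬝ᵥ u) • φ := by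
  rw [T_coe h, vecMul_add, vecMul_one, vecMul_vecMulVec]

@[simp] lemma T_zero_left (φ : Fin n → F) : T 0 φ = 1 := by
  apply sl_ext; rw [T_coe (by simp)]; simp

@[simp] lemma T_zero_right (u : Fin n → F) : T u 0 = 1 := by
  apply sl_ext; rw [T_coe (by simp)]; simp

lemma T_add_left {u u' φ : Fin n → F} (h : φ ⬝ᵥ u = 0) (h' : φ ⬝ᵥ u' = 0) :
    T u φ * T u' φ = T (u + u') φ := by
  apply sl_ext
  rw [Matrix.SpecialLinearGroup.coe_mul, T_coe h, T_coe h', T_coe (by rw [dotProduct_add, h, h', add_zero])]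
  rw [add_mul, mul_add, mul_add, one_mul, mul_one, one_mul, vecMulVec_mul_vecMulVec, h', zero_smul,
    vecMulVec_zero, add_zero, add_vecMulVec]
  abel

lemma T_add_right {u φ φ' : Fin n → F} (h : φ ⬝ᵥ u = 0) (h' : φ' ⬝ᵥ u = 0) :
    T u φ * T u φ' = T u (φ + φ') := by
  apply sl_ext
  rw [Matrix.SpecialLinearGroup.coe_mul, T_coe h, T_coe h', T_coe (by rw [add_dotProduct, h, h', add_zero])]
  rw [add_mul, mul_add, mul_add, one_mul, mul_one, one_mul, vecMulVec_mul_vecMulVec, h, zero_smul,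
    vecMulVec_zero, add_zero, vecMulVec_add]
  abel

lemma T_smul (c : F) (u φ : Fin n → F) : T (c • u) φ = T u (c • φ) := by
  by_cases h : φ ⬝ᵥ u = 0
  · apply sl_ext
    rw [T_coe (by rw [dotProduct_smul, h, smul_zero]), T_coe (by rw [smul_dotProduct, h, smul_zero]),
      smul_vecMulVec, vecMulVec_smul]
  · by_cases hc : c = 0
    · subst hc; simp
    · have h1 : ¬ φ ⬝ᵥ (c • u) = 0 := by
        rw [dotProduct_smul, smul_eq_mul]; exact mul_ne_zero hc h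
      have h2 : ¬ (c • φ) ⬝ᵥ u = 0 := by
        rw [smul_dotProduct, smul_eq_mul]; exact mul_ne_zero hc h
      rw [T_of_ne h1, T_of_ne h2]

lemma T_neg (u φ : Fin n → F) : T (-u) φ = T u (-φ) := by
  have := T_smul (-1 : F) u φ
  simpa using this

lemma T_inv {u φ : Fin n → F} (h : φ ⬝ᵥ u = 0) : (T u φ)⁻¹ = T (-u) φ := by
  rw [inv_eq_iff_mul_eq_one, T_add_left h (by rw [dotProduct_neg, h, neg_zero])]
  simp

lemma dot_conj (g : Matrix.SpecialLinearGroup (Fin n) F) (u φ : Fin n → F) :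
    (φ ᵥ* (g⁻¹ : Matrix.SpecialLinearGroup (Fin n) F).1) ⬝ᵥ (g.1 *ᵥ u) = φ ⬝ᵥ u := by
  have h1 : (g⁻¹ : Matrix.SpecialLinearGroup (Fin n) F).1 * g.1 = 1 := by
    rw [← Matrix.SpecialLinearGroup.coe_mul, inv_mul_cancel, Matrix.SpecialLinearGroup.coe_one]
  rw [← dotProduct_mulVec, mulVec_mulVec, h1, one_mulVec]

lemma T_conj (g : Matrix.SpecialLinearGroup (Fin n) F) (u φ : Fin n → F) :
    g * T u φ * g⁻¹ = T (g.1 *ᵥ u) (φ ᵥ* (g⁻¹ : Matrix.SpecialLinearGroup (Fin n) F).1) := by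
  by_cases h : φ ⬝ᵥ u = 0
  · apply sl_ext
    rw [Matrix.SpecialLinearGroup.coe_mul, Matrix.SpecialLinearGroup.coe_mul, T_coe h,
      T_coe (by rw [dot_conj, h]), mul_add, add_mul, mul_one, ← Matrix.SpecialLinearGroup.coe_mul,
      mul_inv_cancel, Matrix.SpecialLinearGroup.coe_one, mul_vecMulVec, vecMulVec_mul]
  · have h1 : ¬ (φ ᵥ* (g⁻¹ : Matrix.SpecialLinearGroup (Fin n) F).1) ⬝ᵥ (g.1 *ᵥ u) = 0 := by
      rw [dot_conj]; exact h
    rw [T_of_ne h, T_of_ne h1, mul_one, mul_inv_cancel]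

lemma T_eq_one_iff {u φ : Fin n → F} (h : φ ⬝ᵥ u = 0) : T u φ = 1 ↔ u = 0 ∨ φ = 0 := by
  constructor
  · intro h1
    have h2 : (T u φ : Matrix (Fin n) (Fin n) F) = 1 := by rw [h1]; rfl
    rw [T_coe h, add_eq_left, vecMulVec_eq_zero] at h2
    exact h2
  · rintro (rfl | rfl) <;> simp

/-- conjugating `T u' φ'` by `T u φ`, when `φ' ⬝ᵥ u = 0`. -/
lemma T_conj_T {u φ u' φ' : Fin n → F} (h : φ ⬝ᵥ u = 0) (h2 : φ' ⬝ᵥ u = 0) :
    T u φ * T u' φ' * (T u φ)⁻¹ = T (u' + (φ ⬝ᵥ u') • u) φ' := by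
  rw [T_conj, T_mulVec h, T_inv h, T_vecMul (by rw [dotProduct_neg, h, neg_zero]), dotProduct_neg,
    h2, neg_zero, zero_smul, add_zero]

/-- commutator formula. -/
lemma T_comm {u φ u' φ' : Fin n → F} (h : φ ⬝ᵥ u = 0) (h' : φ' ⬝ᵥ u' = 0) (h2 : φ' ⬝ᵥ u = 0) :
    T u φ * T u' φ' * (T u φ)⁻¹ * (T u' φ')⁻¹ = T ((φ ⬝ᵥ u') • u) φ' := by
  rw [T_conj_T h h2, T_inv h', T_add_left (by rw [dotProduct_add, dotProduct_smul, h', h2]; simp)
    (by rw [dotProduct_neg, h', neg_zero])]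
  congr 1
  abel

/-- `SL_n(F)` is generated by the `T u φ`. -/
theorem T_induction (hn : 2 ≤ n) (P : Matrix.SpecialLinearGroup (Fin n) F → Prop)
    (hT : ∀ u φ : Fin n → F, φ ⬝ᵥ u = 0 → P (T u φ))
    (hmul : ∀ A B, P A → P B → P (A * B)) (A : Matrix.SpecialLinearGroup (Fin n) F) : P A := by
  have : Nontrivial (Fin n) := Fin.nontrivial_iff_two_le.2 hn
  refine Cfsg.Agent.Lib.Helper5.SL_transvection_induction P (fun i j hij c => ?_) hmul A
  have h0 : (Pi.single j (1 : F) : Fin n → F) ⬝ᵥ (Pi.single i c : Fin n → F) = 0 := by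
    rw [single_dotProduct, Pi.single_eq_of_ne (Ne.symm hij), mul_zero]
  have : Matrix.SpecialLinearGroup.transvection hij c = T (Pi.single i c) (Pi.single j (1 : F)) := by
    apply sl_ext
    rw [T_coe h0, Matrix.SpecialLinearGroup.transvection_coe]
    congr 1
    ext a b
    simp only [single_apply, vecMulVec_apply, Pi.single_apply]
    by_cases ha : a = i <;> by_cases hb : b = j
    · simp [ha, hb]
    · simp [ha, hb, Ne.symm hb]
    · simp [ha, hb, Ne.symm ha]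
    · simp [ha, hb, Ne.symm ha]
  rw [this]
  exact hT _ _ h0

/-- inverse transpose automorphism. -/
def tau : Matrix.SpecialLinearGroup (Fin n) F →* Matrix.SpecialLinearGroup (Fin n) F where
  toFun g := (g⁻¹).transpose
  map_one' := by apply sl_ext; simp [Matrix.SpecialLinearGroup.coe_transpose]
  map_mul' a b := by
    apply sl_ext
    rw [_root_.mul_inv_rev, Matrix.SpecialLinearGroup.coe_mul,
      Matrix.SpecialLinearGroup.coe_transpose, Matrix.SpecialLinearGroup.coe_transpose,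
      Matrix.SpecialLinearGroup.coe_transpose, Matrix.SpecialLinearGroup.coe_mul,
      Matrix.transpose_mul]

lemma tau_T {u φ : Fin n → F} (h : φ ⬝ᵥ u = 0) : tau (T u φ) = (T φ u)⁻¹ := by
  have h' : u ⬝ᵥ φ = 0 := by rw [dotProduct_comm]; exact h
  rw [T_inv h']
  apply sl_ext
  change ((T u φ)⁻¹).transpose.1 = _
  rw [Matrix.SpecialLinearGroup.coe_transpose, T_inv h, T_coe (by rw [dotProduct_neg, h, neg_zero]),
    T_coe (by rw [dotProduct_neg, h', neg_zero]), transpose_add, transpose_one, transpose_vecMulVec,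
    neg_vecMulVec, vecMulVec_neg]

lemma tau_tau (g : Matrix.SpecialLinearGroup (Fin n) F) : tau (tau g) = g := by
  apply sl_ext
  change (((g⁻¹).transpose)⁻¹).transpose.1 = g.1
  have : ((g⁻¹).transpose)⁻¹ = g.transpose := by
    rw [inv_eq_iff_mul_eq_one]
    apply sl_ext
    rw [Matrix.SpecialLinearGroup.coe_mul, Matrix.SpecialLinearGroup.coe_transpose,
      Matrix.SpecialLinearGroup.coe_transpose, ← transpose_mul, ← Matrix.SpecialLinearGroup.coe_mul]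
    simp
  rw [this]
  simp [Matrix.SpecialLinearGroup.coe_transpose]

lemma tau_surjective : Function.Surjective (tau : Matrix.SpecialLinearGroup (Fin n) F →* _) :=
  fun g => ⟨tau g, tau_tau g⟩

/-- Heisenberg elements. -/
noncomputable def hh (u φ w ψ : Fin n → F) : Matrix.SpecialLinearGroup (Fin n) F := T w φ * T u ψ

lemma hh_coe {u φ w ψ : Fin n → F} (h : φ ⬝ᵥ u = 0) (hw : φ ⬝ᵥ w = 0) (hψ : ψ ⬝ᵥ u = 0) :
    (hh u φ w ψ : Matrix (Fin n) (Fin n) F) = 1 + vecMulVec w φ + vecMulVec u ψ := by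
  rw [hh, Matrix.SpecialLinearGroup.coe_mul, T_coe hw, T_coe hψ, add_mul, one_mul, mul_add, mul_one,
    vecMulVec_mul_vecMulVec, h, zero_smul, vecMulVec_zero, add_zero]
  abel

lemma hh_mul {u φ w ψ w' ψ' : Fin n → F} (h : φ ⬝ᵥ u = 0) (hw : φ ⬝ᵥ w = 0) (hψ : ψ ⬝ᵥ u = 0)
    (hw' : φ ⬝ᵥ w' = 0) (hψ' : ψ' ⬝ᵥ u = 0) :
    hh u φ w ψ * hh u φ w' ψ' = hh u φ (w + w' + (ψ ⬝ᵥ w') • u) (ψ + ψ') := by
  apply sl_ext
  rw [Matrix.SpecialLinearGroup.coe_mul, hh_coe h hw hψ, hh_coe h hw' hψ',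
    hh_coe h (by simp [dotProduct_add, dotProduct_smul, h, hw, hw'])
      (by rw [add_dotProduct, hψ, hψ', add_zero])]
  simp only [add_mul, mul_add, one_mul, mul_one, vecMulVec_mul_vecMulVec, h, hw', hψ, zero_smul,
    vecMulVec_zero, add_zero, add_vecMulVec, vecMulVec_add, vecMulVec_smul, smul_vecMulVec]
  abel

lemma hh_conj (g : Matrix.SpecialLinearGroup (Fin n) F) (u φ w ψ : Fin n → F) :
    g * hh u φ w ψ * g⁻¹ = T (g.1 *ᵥ w) (φ ᵥ* (g⁻¹ : Matrix.SpecialLinearGroup (Fin n) F).1) *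
      T (g.1 *ᵥ u) (ψ ᵥ* (g⁻¹ : Matrix.SpecialLinearGroup (Fin n) F).1) := by
  rw [← T_conj, ← T_conj, hh]; group

end Cfsg.Agent.Lib.Helper5.MI
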