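import Mathlib
import Cfsg.Agent.Lib.Helper5.MinIdx0
import Cfsg.Agent.Lib.Helper57.RootSLb

set_option autoImplicit false

/-! S2140, the regular case: a subgroup `H` of `SL_n(F)` (`n ≥ 3`, `(n,q) ≠ (4,2)`) containing no
transvection cannot be a complement to every group of transvections with a given axis. -/

namespace Cfsg.Agent.Lib.Helper5.MI

open Matrix

variable {n : ℕ} {F : Type*} [Field F]

/-- `H` contains no transvection and `G = A_φ H` for all `φ ≠ 0`. -/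
structure Reg (H : Subgroup (Matrix.SpecialLinearGroup (Fin n) F)) : Prop where
  reg : ∀ φ : Fin n → F, φ ≠ 0 → ∀ g : Matrix.SpecialLinearGroup (Fin n) F,
    ∃ u : Fin n → F, φ ⬝ᵥ u = 0 ∧ T u φ * g ∈ H
  free : ∀ u φ : Fin n → F, φ ⬝ᵥ u = 0 → T u φ ∈ H → u = 0 ∨ φ = 0

variable {H : Subgroup (Matrix.SpecialLinearGroup (Fin n) F)}

lemma Reg.exists_w (R : Reg H) (u : Fin n → F) {φ : Fin n → F} (hφ : φ ≠ 0) (ψ : Fin n → F) :
    ∃ w, φ ⬝ᵥ w = 0 ∧ hh u φ w ψ ∈ H := R.reg φ hφ (T u ψ)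

lemma Reg.uniq (R : Reg H) {u φ w w' ψ : Fin n → F} (hφ : φ ≠ 0) (hw : φ ⬝ᵥ w = 0)
    (hw' : φ ⬝ᵥ w' = 0) (h1 : hh u φ w ψ ∈ H) (h2 : hh u φ w' ψ ∈ H) : w' = w := by
  have h3 : hh u φ w' ψ * (hh u φ w ψ)⁻¹ ∈ H := H.mul_mem h2 (H.inv_mem h1)
  have hnw : φ ⬝ᵥ (-w) = 0 := by rw [dotProduct_neg, hw, neg_zero]
  have h4 : hh u φ w' ψ * (hh u φ w ψ)⁻¹ = T (w' - w) φ := by
    rw [hh, hh, _root_.mul_inv_rev, mul_assoc, mul_inv_cancel_left, T_inv hw, T_add_left hw' hnw,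
      sub_eq_add_neg]
  rw [h4] at h3
  rcases R.free _ _ (by rw [dotProduct_sub, hw, hw', sub_zero]) h3 with h | h
  · exact sub_eq_zero.1 h
  · exact absurd h hφ

lemma Reg.of_conj (R : Reg H) {u φ w w' ψ : Fin n → F} (hφ : φ ≠ 0) (h : φ ⬝ᵥ u = 0)
    (hψ : ψ ⬝ᵥ u = 0) (hw : φ ⬝ᵥ w = 0) (hw' : φ ⬝ᵥ w' = 0) (h1 : hh u φ w ψ ∈ H)
    (y : Matrix.SpecialLinearGroup (Fin n) F) (h2 : y⁻¹ * hh u φ w' ψ * y ∈ H) :
    ∃ c : F, w' = w + c • u := by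
  obtain ⟨v, hv, hvy⟩ := R.reg φ hφ y
  have h3 : T v φ * hh u φ w' ψ * (T v φ)⁻¹ ∈ H := by
    have : T v φ * hh u φ w' ψ * (T v φ)⁻¹
        = (T v φ * y) * (y⁻¹ * hh u φ w' ψ * y) * (T v φ * y)⁻¹ := by group
    rw [this]; exact H.mul_mem (H.mul_mem hvy h2) (H.inv_mem hvy)
  have hnv : φ ⬝ᵥ (-v) = 0 := by rw [dotProduct_neg, hv, neg_zero]
  have h4 : T v φ * hh u φ w' ψ * (T v φ)⁻¹ = hh u φ (w' + (-(ψ ⬝ᵥ v)) • u) ψ := by
    rw [hh_conj, T_mulVec hv, T_mulVec hv, hw', h, zero_smul, add_zero, add_zero,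
      T_inv hv, T_vecMul hnv, T_vecMul hnv, dotProduct_neg, dotProduct_neg, hv, neg_zero, zero_smul,
      add_zero]
    rw [hh, add_comm ψ, ← T_add_right (by rw [smul_dotProduct, h, smul_zero]) hψ, ← T_smul,
      ← mul_assoc, T_add_left hw' (by rw [dotProduct_smul, h, smul_zero])]
  rw [h4] at h3
  have h5 := R.uniq hφ hw (by rw [dotProduct_add, dotProduct_smul, h, hw', smul_zero, add_zero]) h1 h3
  refine ⟨ψ ⬝ᵥ v, ?_⟩
  rw [← h5, neg_smul]; abel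

lemma Reg.nondeg (R : Reg H) {u φ ψ : Fin n → F} (hu : u ≠ 0) (h : φ ⬝ᵥ u = 0)
    (hψ : ψ ⬝ᵥ u = 0) (c : F) (h1 : hh u φ (c • u) ψ ∈ H) : ψ = (-c) • φ := by
  rw [hh, T_smul, T_add_right (by rw [smul_dotProduct, h, smul_zero]) hψ] at h1
  rcases R.free _ _ (by rw [add_dotProduct, smul_dotProduct, h, hψ, smul_zero, add_zero]) h1 with h2 | h2
  · exact absurd h2 hu
  · rw [neg_smul]; exact eq_neg_of_add_eq_zero_right h2

lemma Reg.conj' (R : Reg H) {u φ w ψ : Fin n → F} (hφ : φ ≠ 0) (h : φ ⬝ᵥ u = 0)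
    (hψ : ψ ⬝ᵥ u = 0) (hw : φ ⬝ᵥ w = 0) (h1 : hh u φ w ψ ∈ H)
    (g : Matrix.SpecialLinearGroup (Fin n) F) (α β : F) (hgu : g.1 *ᵥ u = α • u)
    (hgφ : φ ᵥ* (g⁻¹ : Matrix.SpecialLinearGroup (Fin n) F).1 = β • φ)
    (hgψ : α • (ψ ᵥ* (g⁻¹ : Matrix.SpecialLinearGroup (Fin n) F).1) = ψ) :
    ∃ c : F, β • (g.1 *ᵥ w) = w + c • u := by
  have h2 : g * hh u φ w ψ * g⁻¹ = hh u φ (β • (g.1 *ᵥ w)) ψ := by
    rw [hh_conj, hgu, hgφ, T_smul α, hgψ, ← T_smul β, hh]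
  have h3 : φ ⬝ᵥ (β • (g.1 *ᵥ w)) = 0 := by
    have := dot_conj g w φ
    rw [hgφ, hw, smul_dotProduct] at this
    rw [dotProduct_smul]; exact this
  refine R.of_conj hφ h hψ hw h3 h1 g ?_
  rw [← h2]
  have : g⁻¹ * (g * hh u φ w ψ * g⁻¹) * g = hh u φ w ψ := by group
  rw [this]; exact h1

lemma Reg.add (_R : Reg H) {u φ w ψ w' ψ' : Fin n → F} (h : φ ⬝ᵥ u = 0)
    (hψ : ψ ⬝ᵥ u = 0) (hw : φ ⬝ᵥ w = 0) (h1 : hh u φ w ψ ∈ H)
    (hψ' : ψ' ⬝ᵥ u = 0) (hw' : φ ⬝ᵥ w' = 0) (h1' : hh u φ w' ψ' ∈ H) :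
    hh u φ (w + w' + (ψ ⬝ᵥ w') • u) (ψ + ψ') ∈ H := by
  rw [← hh_mul h hw hψ hw' hψ']; exact H.mul_mem h1 h1'

lemma Reg.symm (R : Reg H) {u φ w ψ w' ψ' : Fin n → F} (hu : u ≠ 0) (hφ : φ ≠ 0) (h : φ ⬝ᵥ u = 0)
    (hψ : ψ ⬝ᵥ u = 0) (hw : φ ⬝ᵥ w = 0) (h1 : hh u φ w ψ ∈ H)
    (hψ' : ψ' ⬝ᵥ u = 0) (hw' : φ ⬝ᵥ w' = 0) (h1' : hh u φ w' ψ' ∈ H) :
    ψ ⬝ᵥ w' = ψ' ⬝ᵥ w := by
  have a1 := R.add h hψ hw h1 hψ' hw' h1'
  have a2 := R.add h hψ' hw' h1' hψ hw h1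
  rw [add_comm ψ' ψ] at a2
  have a3 := R.uniq hφ (by simp [dotProduct_add, dotProduct_smul, h, hw, hw'])
    (by simp [dotProduct_add, dotProduct_smul, h, hw, hw']) a1 a2
  have a4 : (ψ' ⬝ᵥ w) • u = (ψ ⬝ᵥ w') • u := by
    have : w' + w + (ψ' ⬝ᵥ w) • u = w' + w + (ψ ⬝ᵥ w') • u := by rw [a3]; abel
    exact add_left_cancel this
  have a5 : (ψ' ⬝ᵥ w - ψ ⬝ᵥ w') • u = 0 := by rw [sub_smul, a4, sub_self]
  rcases smul_eq_zero.1 a5 with h6 | h6
  · exact (sub_eq_zero.1 h6).symm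
  · exact absurd h6 hu

/-- conjugation by a transvection `T z χ`. -/
lemma Reg.tv_step (R : Reg H) {u φ w ψ z χ : Fin n → F} (hφ : φ ≠ 0) (h : φ ⬝ᵥ u = 0)
    (hψ : ψ ⬝ᵥ u = 0) (hw : φ ⬝ᵥ w = 0) (h1 : hh u φ w ψ ∈ H)
    (hχu : χ ⬝ᵥ u = 0) (hχz : χ ⬝ᵥ z = 0) (hφz : φ ⬝ᵥ z = 0) (hψz : ψ ⬝ᵥ z = 0)
    (hz : ∀ c : F, z ≠ c • u) : χ ⬝ᵥ w = 0 := by
  have hnz : χ ⬝ᵥ (-z) = 0 := by rw [dotProduct_neg, hχz, neg_zero]
  obtain ⟨c, hc⟩ := R.conj' hφ h hψ hw h1 (T z χ) 1 1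
    (by rw [T_mulVec hχz, hχu, zero_smul, add_zero, one_smul])
    (by rw [T_inv hχz, T_vecMul hnz, dotProduct_neg, hφz, neg_zero, zero_smul, add_zero, one_smul])
    (by rw [T_inv hχz, T_vecMul hnz, dotProduct_neg, hψz, neg_zero, zero_smul, add_zero, one_smul])
  rw [one_smul, T_mulVec hχz] at hc
  have hc' : (χ ⬝ᵥ w) • z = c • u := add_left_cancel hc
  by_contra hne
  apply hz ((χ ⬝ᵥ w)⁻¹ * c)
  rw [mul_smul, ← hc', smul_smul, inv_mul_cancel₀ hne, one_smul]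

lemma exists_ker (k : ℕ) (hk : k < n) (M : Fin k → Fin n → F) :
    ∃ z : Fin n → F, z ≠ 0 ∧ ∀ i, M i ⬝ᵥ z = 0 := by
  have hker : LinearMap.ker (Matrix.mulVecLin (Matrix.of M)) ≠ ⊥ := by
    apply LinearMap.ker_ne_bot_of_finrank_lt
    simpa using hk
  obtain ⟨z, hz, hz0⟩ := (Submodule.ne_bot_iff _).mp hker
  rw [LinearMap.mem_ker, Matrix.mulVecLin_apply] at hz
  exact ⟨z, hz0, fun i => by simpa [Matrix.mulVec] using congrFun hz i⟩

/-- standard basis vectors. -/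
def e (i : Fin n) : Fin n → F := Pi.single i 1

lemma e_dot (i : Fin n) (x : Fin n → F) : (e i : Fin n → F) ⬝ᵥ x = x i := by
  simp [e]

lemma e_ne_zero (i : Fin n) : (e i : Fin n → F) ≠ 0 := by
  intro h
  have := congrFun h i
  simp [e] at this

lemma e_apply_ne {i j : Fin n} (h : j ≠ i) : (e i : Fin n → F) j = 0 := by
  simp [e, h]

lemma e_apply_self (i : Fin n) : (e i : Fin n → F) i = 1 := by
  simp [e]

lemma Reg.contra (R : Reg H) {i0 i1 i2 : Fin n} (h01 : i0 ≠ i1) (h02 : i0 ≠ i2) (h12 : i1 ≠ i2)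
    {w : Fin n → F} (h1 : hh (e i0) (e i2) w (e i1) ∈ H) (hw0 : ∀ j, j ≠ i0 → w j = 0) : False := by
  have hw : w = (w i0) • (e i0 : Fin n → F) := by
    funext j
    by_cases hj : j = i0
    · subst hj; simp [e_apply_self]
    · rw [hw0 j hj]; simp [e_apply_ne hj]
  rw [hw] at h1
  have h2 := R.nondeg (e_ne_zero i0) (by rw [e_dot, e_apply_ne h02.symm])
    (by rw [e_dot, e_apply_ne h01.symm]) _ h1
  have h3 := congrFun h2 i1
  rw [e_apply_self, Pi.smul_apply, e_apply_ne h12, smul_zero] at h3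
  exact one_ne_zero h3

lemma ne_smul_e {i0 : Fin n} {z : Fin n → F} (hz0 : z ≠ 0) (hz : (e i0 : Fin n → F) ⬝ᵥ z = 0) :
    ∀ c : F, z ≠ c • (e i0 : Fin n → F) := by
  intro c hc
  rw [e_dot] at hz
  have h1 := congrFun hc i0
  rw [hz, Pi.smul_apply, e_apply_self, smul_eq_mul, mul_one] at h1
  rw [← h1, zero_smul] at hc
  exact hz0 hc

lemma Reg.caseA (R : Reg H) (hn : 5 ≤ n) : False := by
  obtain ⟨i0, i1, i2, h01, h02, h12⟩ : ∃ i0 i1 i2 : Fin n, i0 ≠ i1 ∧ i0 ≠ i2 ∧ i1 ≠ i2 :=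
    ⟨⟨0, by omega⟩, ⟨1, by omega⟩, ⟨2, by omega⟩, by simp [Fin.ext_iff], by simp [Fin.ext_iff],
      by simp [Fin.ext_iff]⟩
  obtain ⟨w, hw, h1⟩ := R.exists_w (e i0) (e_ne_zero i2) (e i1)
  refine R.contra h01 h02 h12 h1 (fun j hj => ?_)
  obtain ⟨z, hz0, hz⟩ := exists_ker 4 (by omega) ![e i2, e j, e i1, (e i0 : Fin n → F)]
  have := R.tv_step (χ := e j) (z := z) (e_ne_zero i2) (by rw [e_dot, e_apply_ne h02.symm])
    (by rw [e_dot, e_apply_ne h01.symm]) hw h1 (by rw [e_dot, e_apply_ne hj]) (hz 1) (hz 0) (hz 2)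
    (ne_smul_e hz0 (hz 3))
  rwa [e_dot] at this

lemma Reg.caseB (R : Reg H) (hn : 4 ≤ n) (h2 : (2 : F) ≠ 0) : False := by
  obtain ⟨i0, i1, i2, h01, h02, h12⟩ : ∃ i0 i1 i2 : Fin n, i0 ≠ i1 ∧ i0 ≠ i2 ∧ i1 ≠ i2 :=
    ⟨⟨0, by omega⟩, ⟨1, by omega⟩, ⟨2, by omega⟩, by simp [Fin.ext_iff], by simp [Fin.ext_iff],
      by simp [Fin.ext_iff]⟩
  have hφu : (e i2 : Fin n → F) ⬝ᵥ (e i0 : Fin n → F) = 0 := by rw [e_dot, e_apply_ne h02.symm]
  have iso : ∀ ψ w : Fin n → F, ψ ⬝ᵥ (e i0 : Fin n → F) = 0 → (e i2 : Fin n → F) ⬝ᵥ w = 0 →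
      hh (e i0) (e i2) w ψ ∈ H → ψ ⬝ᵥ w = 0 := by
    intro ψ w hψ hw h1
    obtain ⟨z, hz0, hz⟩ := exists_ker 3 (by omega) ![e i2, ψ, (e i0 : Fin n → F)]
    exact R.tv_step (χ := ψ) (z := z) (e_ne_zero i2) hφu hψ hw h1 hψ (hz 1) (hz 0) (hz 1)
      (ne_smul_e hz0 (hz 2))
  obtain ⟨w, hw, h1⟩ := R.exists_w (e i0) (e_ne_zero i2) (e i1)
  have hψ1 : (e i1 : Fin n → F) ⬝ᵥ (e i0 : Fin n → F) = 0 := by rw [e_dot, e_apply_ne h01.symm]
  refine R.contra h01 h02 h12 h1 (fun j hj => ?_)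
  have hψ2 : (e j : Fin n → F) ⬝ᵥ (e i0 : Fin n → F) = 0 := by rw [e_dot, e_apply_ne hj]
  obtain ⟨w2, hw2, h12'⟩ := R.exists_w (e i0) (e_ne_zero i2) (e j)
  have a1 := iso _ _ hψ1 hw h1
  have a2 := iso _ _ hψ2 hw2 h12'
  have a3 := iso _ _ (by rw [add_dotProduct, hψ1, hψ2, add_zero])
    (by simp [dotProduct_add, dotProduct_smul, hφu, hw, hw2]) (R.add hφu hψ1 hw h1 hψ2 hw2 h12')
  have a4 := R.symm (e_ne_zero i0) (e_ne_zero i2) hφu hψ1 hw h1 hψ2 hw2 h12'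
  simp only [add_dotProduct, dotProduct_add, dotProduct_smul, hψ1, hψ2, a1, a2, smul_zero, add_zero,
    zero_add] at a3
  rw [a4, e_dot] at a3
  have : (2 : F) * w j = 0 := by rw [two_mul]; exact a3
  rcases mul_eq_zero.1 this with h | h
  · exact absurd h h2
  · exact h

/-- diagonal elements. -/
def dg (d : Fin n → F) (hd : ∏ i, d i = 1) : Matrix.SpecialLinearGroup (Fin n) F :=
  ⟨diagonal d, by rw [det_diagonal, hd]⟩

lemma dg_coe (d : Fin n → F) (hd : ∏ i, d i = 1) :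
    (dg d hd : Matrix (Fin n) (Fin n) F) = diagonal d := rfl

lemma dg_inv (d : Fin n → F) (hd : ∏ i, d i = 1) :
    (dg d hd)⁻¹ = dg (fun i => (d i)⁻¹) (by rw [Finset.prod_inv_distrib, hd, inv_one]) := by
  apply inv_eq_of_mul_eq_one_right
  apply sl_ext
  rw [Matrix.SpecialLinearGroup.coe_mul, dg_coe, dg_coe, diagonal_mul_diagonal,
    Matrix.SpecialLinearGroup.coe_one, ← diagonal_one]
  congr 1
  funext i
  have hne : d i ≠ 0 := by
    have : ∏ i, d i ≠ 0 := by rw [hd]; exact one_ne_zero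
    exact (Finset.prod_ne_zero_iff.1 this) i (Finset.mem_univ i)
  exact mul_inv_cancel₀ hne

lemma Reg.dg_step (R : Reg H) {i0 i1 i2 : Fin n} (h01 : i0 ≠ i1) (h02 : i0 ≠ i2)
    {w : Fin n → F} (hw : (e i2 : Fin n → F) ⬝ᵥ w = 0) (h1 : hh (e i0) (e i2) w (e i1) ∈ H)
    (d : Fin n → F) (hd : ∏ i, d i = 1) (hd01 : d i0 = d i1) (j : Fin n) (hj : j ≠ i0) :
    (d i2)⁻¹ * (d j * w j) = w j := by
  have hne : ∀ i, d i ≠ 0 := by
    intro i
    have : ∏ i, d i ≠ 0 := by rw [hd]; exact one_ne_zero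
    exact (Finset.prod_ne_zero_iff.1 this) i (Finset.mem_univ i)
  obtain ⟨c, hc⟩ := R.conj' (e_ne_zero i2) (by rw [e_dot, e_apply_ne h02.symm])
    (by rw [e_dot, e_apply_ne h01.symm]) hw h1 (dg d hd) (d i0) (d i2)⁻¹
    (by
      funext x
      change ((dg d hd : Matrix (Fin n) (Fin n) F) *ᵥ _) x = _
      rw [dg_coe, mulVec_diagonal, Pi.smul_apply, smul_eq_mul]
      by_cases hx : x = i0
      · subst hx; rfl
      · rw [e_apply_ne hx, mul_zero, mul_zero])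
    (by
      funext x
      rw [dg_inv]
      change (_ ᵥ* ((dg _ _ : Matrix.SpecialLinearGroup (Fin n) F) : Matrix (Fin n) (Fin n) F)) x = _
      rw [dg_coe, vecMul_diagonal, Pi.smul_apply, smul_eq_mul]
      by_cases hx : x = i2
      · subst hx; rw [mul_comm]
      · rw [e_apply_ne hx, mul_zero, zero_mul])
    (by
      funext x
      rw [dg_inv]
      change (d i0 • (_ ᵥ* ((dg _ _ : Matrix.SpecialLinearGroup (Fin n) F) :
        Matrix (Fin n) (Fin n) F))) x = _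
      rw [dg_coe, Pi.smul_apply, vecMul_diagonal, smul_eq_mul]
      by_cases hx : x = i1
      · subst hx; rw [e_apply_self, one_mul, hd01, mul_inv_cancel₀ (hne _)]
      · rw [e_apply_ne hx, zero_mul, mul_zero])
  have h3 := congrFun hc j
  change ((d i2)⁻¹ • ((dg d hd : Matrix (Fin n) (Fin n) F) *ᵥ w)) j = _ at h3
  rw [dg_coe, Pi.smul_apply, mulVec_diagonal, Pi.add_apply, Pi.smul_apply, e_apply_ne hj, smul_zero,
    add_zero, smul_eq_mul] at h3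
  exact h3

lemma Reg.sq_step (R : Reg H) (h2 : (2 : F) = 0) {u φ w ψ : Fin n → F} (hu : u ≠ 0) (hφ : φ ≠ 0)
    (h : φ ⬝ᵥ u = 0) (hψ : ψ ⬝ᵥ u = 0) (hw : φ ⬝ᵥ w = 0) (h1 : hh u φ w ψ ∈ H) : ψ ⬝ᵥ w = 0 := by
  have a1 := R.add h hψ hw h1 hψ hw h1
  have e1 : w + w = 0 := by rw [← two_smul F w, h2, zero_smul]
  have e2 : ψ + ψ = 0 := by rw [← two_smul F ψ, h2, zero_smul]
  rw [e1, e2, zero_add, hh, T_zero_right, mul_one] at a1
  rcases R.free _ _ (by rw [dotProduct_smul, h, smul_zero]) a1 with h3 | h3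
  · rcases smul_eq_zero.1 h3 with h4 | h4
    · exact h4
    · exact absurd h4 hu
  · exact absurd h3 hφ

lemma Reg.case3 {H : Subgroup (Matrix.SpecialLinearGroup (Fin 3) F)} (R : Reg H) : False := by
  obtain ⟨w, hw, h1⟩ := R.exists_w (e (0 : Fin 3)) (e_ne_zero (2 : Fin 3)) (e (1 : Fin 3))
  have h01 : (0 : Fin 3) ≠ 1 := by decide
  have h02 : (0 : Fin 3) ≠ 2 := by decide
  have h12 : (1 : Fin 3) ≠ 2 := by decide
  have hw2 : w 2 = 0 := by rwa [e_dot] at hw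
  have hw1 : w 1 = 0 := by
    by_cases h2 : (2 : F) = 0
    · have := R.sq_step h2 (e_ne_zero 0) (e_ne_zero 2) (by rw [e_dot, e_apply_ne h02.symm])
        (by rw [e_dot, e_apply_ne h01.symm]) hw h1
      rwa [e_dot] at this
    · have := R.dg_step h01 h02 hw h1 ![-1, -1, 1] (by simp [Fin.prod_univ_succ]) (by simp) 1
        h01.symm
      simp only [Matrix.cons_val] at this
      have h3 : (2 : F) * w 1 = 0 := by
        have : -w 1 = w 1 := by simpa using this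
        linear_combination -this
      rcases mul_eq_zero.1 h3 with h | h
      · exact absurd h h2
      · exact h
  refine R.contra h01 h02 h12 h1 (fun j hj => ?_)
  fin_cases j
  · exact absurd rfl hj
  · exact hw1
  · exact hw2

lemma Reg.case4 {H : Subgroup (Matrix.SpecialLinearGroup (Fin 4) F)} (R : Reg H)
    (γ : F) (hγ0 : γ ≠ 0) (hγ1 : γ ≠ 1) (hγ2 : γ ^ 2 ≠ 1) : False := by
  obtain ⟨w, hw, h1⟩ := R.exists_w (e (0 : Fin 4)) (e_ne_zero (3 : Fin 4)) (e (1 : Fin 4))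
  have h01 : (0 : Fin 4) ≠ 1 := by decide
  have h02 : (0 : Fin 4) ≠ 3 := by decide
  have h12 : (1 : Fin 4) ≠ 3 := by decide
  have hw3 : w 3 = 0 := by rwa [e_dot] at hw
  have hd : ∏ i, (![γ, γ, (γ ^ 2)⁻¹, 1] : Fin 4 → F) i = 1 := by
    simp [Fin.prod_univ_succ]
    field_simp
  have hw1 : w 1 = 0 := by
    have := R.dg_step h01 h02 hw h1 ![γ, γ, (γ ^ 2)⁻¹, 1] hd (by simp) 1 h01.symm
    have h3 : γ * w 1 = w 1 := by simpa using this
    have h4 : (γ - 1) * w 1 = 0 := by linear_combination h3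
    rcases mul_eq_zero.1 h4 with h | h
    · exact absurd (sub_eq_zero.1 h) hγ1
    · exact h
  have hw2 : w 2 = 0 := by
    have := R.dg_step h01 h02 hw h1 ![γ, γ, (γ ^ 2)⁻¹, 1] hd (by simp) 2 (by decide)
    have h3 : (γ ^ 2)⁻¹ * w 2 = w 2 := by simpa using this
    have h4 : (γ ^ 2 - 1) * w 2 = 0 := by
      have h5 : γ ^ 2 ≠ 0 := pow_ne_zero 2 hγ0
      have : w 2 = γ ^ 2 * w 2 := by
        conv_lhs => rw [← h3]
        rw [h3]
        field_simp at h3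
        exact h3
      linear_combination -this
    rcases mul_eq_zero.1 h4 with h | h
    · exact absurd (sub_eq_zero.1 h) hγ2
    · exact h
  refine R.contra h01 h02 h12 h1 (fun j hj => ?_)
  fin_cases j
  · exact absurd rfl hj
  · exact hw1
  · exact hw2
  · exact hw3

theorem Reg.false [Fintype F] (R : Reg H) (hn : 3 ≤ n) (hexc : ¬ (n = 4 ∧ Fintype.card F = 2)) :
    False := by
  classical
  rcases Nat.lt_or_ge n 5 with h5 | h5
  · have h34 : n = 3 ∨ n = 4 := by omega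
    rcases h34 with rfl | rfl
    · exact R.case3
    · by_cases h2 : (2 : F) = 0
      · have hc : Fintype.card F ≠ 2 := fun h => hexc ⟨rfl, h⟩
        have hc2 : 2 < Fintype.card F := by
          have := Fintype.one_lt_card (α := F)
          omega
        obtain ⟨γ, hγ0, hγ1⟩ : ∃ γ : F, γ ≠ 0 ∧ γ ≠ 1 := by
          by_contra hcon
          push Not at hcon
          have : Fintype.card F ≤ ({0, 1} : Finset F).card := by
            rw [← Finset.card_univ]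
            apply Finset.card_le_card
            intro x _
            by_cases hx : x = 0
            · simp [hx]
            · simp [hcon x hx]
          have h3 : ({0, 1} : Finset F).card ≤ 2 := Finset.card_le_two
          omega
        refine R.case4 γ hγ0 hγ1 (fun h => hγ1 ?_)
        have h3 : (γ - 1) ^ 2 = 0 := by linear_combination h - (γ - 1) * h2
        exact sub_eq_zero.1 (pow_eq_zero_iff (two_ne_zero) |>.1 h3)
      · exact R.caseB le_rfl h2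
  · exact R.caseA h5

lemma T_eq_tv (u φ : Fin n → F) : T u φ = Cfsg.Agent.Lib.Helper57.RootSL.tv u φ := by
  by_cases h : φ ⬝ᵥ u = 0
  · apply sl_ext
    rw [T_coe h, Cfsg.Agent.Lib.Helper57.RootSL.tv_val h]
  · rw [T_of_ne h, Cfsg.Agent.Lib.Helper57.RootSL.tv_of_ne h]

open Cfsg.Agent.Lib.Helper57.RootSL in
/-- Piece REG of S2140. -/
theorem regular_false {n : ℕ} {F : Type*} [Field F] [Fintype F] (hn : 3 ≤ n)
    (hexc : ¬ (n = 4 ∧ Fintype.card F = 2)) (H : Subgroup (Matrix.SpecialLinearGroup (Fin n) F))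
    (hreg : ∀ c : Fin n → F, c ≠ 0 → ∀ g : Matrix.SpecialLinearGroup (Fin n) F,
      ∃ f : Fin n → F, f ⬝ᵥ c = 0 ∧ tv c f * g ∈ H)
    (hfree : ∀ c f : Fin n → F, f ⬝ᵥ c = 0 → tv c f ∈ H → c = 0 ∨ f = 0) : False := by
  have R : Reg (H.map tau) := by
    constructor
    · intro φ hφ g
      obtain ⟨g', rfl⟩ := tau_surjective g
      obtain ⟨f, hf, hfg⟩ := hreg φ hφ g'
      refine ⟨-f, by rw [dotProduct_neg, dotProduct_comm, hf, neg_zero], ?_⟩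
      refine ⟨tv φ f * g', hfg, ?_⟩
      rw [map_mul, ← T_eq_tv, tau_T hf, T_inv (by rw [dotProduct_comm]; exact hf)]
    · intro u φ h hmem
      obtain ⟨x, hx, hxe⟩ := hmem
      have h' : u ⬝ᵥ φ = 0 := by rw [dotProduct_comm]; exact h
      have h1 : tau (T φ (-u)) = T u φ := by
        rw [tau_T (by rw [neg_dotProduct, h', neg_zero]), T_inv (by
          rw [dotProduct_neg, h, neg_zero]), neg_neg]
      have hinj : Function.Injective (tau : Matrix.SpecialLinearGroup (Fin n) F →* _) := by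
        intro a b hab
        have ha : tau (tau a) = a := tau_tau a
        have hb : tau (tau b) = b := tau_tau b
        rw [← ha, ← hb, hab]
      have h2 : x = T φ (-u) := hinj (by rw [hxe, h1])
      rw [h2, T_eq_tv] at hx
      rcases hfree _ _ (by rw [neg_dotProduct, h', neg_zero]) hx with h3 | h3
      · exact Or.inr h3
      · exact Or.inl (neg_eq_zero.1 h3)
  exact R.false hn hexc

end Cfsg.Agent.Lib.Helper5.MI
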