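import Mathlib
import Cfsg.Agent.Lib.Helper5.BlockStab
import Cfsg.Agent.Lib.Helper5.HermFrames
import Cfsg.Agent.Lib.Helper5.SUOrder
import Cfsg.Agent.S0755

set_option autoImplicit false

namespace Cfsg.Agent.Lib.Helper5

open Matrix Module Cfsg.Agent.Lib.Helper13

variable {F : Type*} [Field F] [Fintype F] {q : ℕ}

omit [Fintype F] in
lemma hermForm_split {k l n : ℕ} (c : Fin k ⊕ Fin l ≃ Fin n) (u v : Fin n → F) :
    Cfsg.hermForm n F q u v = Cfsg.hermForm k F q (p1 c u) (p1 c v) +
      Cfsg.hermForm l F q (p2 c u) (p2 c v) := by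
  unfold Cfsg.hermForm
  rw [← Equiv.sum_comp c, Fintype.sum_sum_type]
  rfl

lemma gu_char (hF : Fintype.card F = q ^ 2) (n : ℕ) (M : Matrix (Fin n) (Fin n) F) :
    (∃ h, guToMat n F q h = M) ↔
      ∀ u v, Cfsg.hermForm n F q (M *ᵥ u) (M *ᵥ v) = Cfsg.hermForm n F q u v := by
  constructor
  · rintro ⟨h, rfl⟩; exact h.2
  · intro h
    have hdet : M.det ≠ 0 := by
      intro h0
      have := det_pow_eq_one_of_preserves hF M h
      rw [h0, zero_pow (by omega)] at this
      exact zero_ne_one this
    exact ⟨⟨Matrix.GeneralLinearGroup.mkOfDetNeZero M hdet, h⟩, rfl⟩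

omit [Fintype F] in
lemma guToMat_injective (n : ℕ) : Function.Injective (guToMat n F q) := by
  intro a b h
  apply Subtype.ext
  apply Units.ext
  exact h

/-- an orthonormal basis of a non-degenerate subspace -/
lemma exists_orthonormal_frame (hF : Fintype.card F = q ^ 2) (n k : ℕ) (W : Submodule F (Fin n → F))
    (hWk : finrank F W = k)
    (hW : ∀ u ∈ W, (∀ v ∈ W, Cfsg.hermForm n F q u v = 0) → u = 0) :
    ∃ x : Fin k → Fin n → F, LinearIndependent F x ∧
      Submodule.span F (Set.range x) = W ∧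
      ∀ a b, Cfsg.hermForm n F q (x a) (x b) =
        Cfsg.hermForm k F q (Pi.single a 1) (Pi.single b 1) := by
  classical
  have hq := two_le_of_card_sq hF
  obtain ⟨b, hb⟩ := Cfsg.Agent.S0755.result (frobQ hF) (frobQ_ne_id hF)
    (fun a => pow_q_pow_q hF a) ((hermB hF n).domRestrict₁₂ W W) (by
      constructor
      intro x y
      exact (hermB_isSymm hF n).eq x.1 y.1) (by
      constructor
      · intro x hx
        apply Subtype.ext
        apply hW x.1 x.2
        intro v hv
        have := hx ⟨v, hv⟩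
        change Cfsg.hermForm n F q v x.1 = 0 at this
        rw [← hermForm_swap hF, this, zero_pow (by omega)]
      · intro y hy
        apply Subtype.ext
        apply hW y.1 y.2
        intro v hv
        exact hy ⟨v, hv⟩)
  subst hWk
  refine ⟨fun a => (b a : W).1, ?_, ?_, ?_⟩
  · exact b.linearIndependent.map' W.subtype (Submodule.ker_subtype W)
  · have h3 : Set.range (fun a => ((b a : W) : Fin n → F)) = W.subtype '' Set.range b := by
      rw [← Set.range_comp]; rfl
    rw [h3, Submodule.span_image, b.span_eq, Submodule.map_top, Submodule.range_subtype]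
  · intro a c
    have := hb c a
    change Cfsg.hermForm n F q (b a : W).1 (b c : W).1 = _ at this
    rw [this, hermForm_single_left]
    simp [Pi.single_apply, eq_comm]
    rw [zero_pow (by omega)]

theorem gu_stab_nondeg (hF : Fintype.card F = q ^ 2) (n k : ℕ) (hk : k ≤ n)
    (W : Submodule F (Fin n → F)) (hWk : finrank F W = k)
    (hW : ∀ u ∈ W, (∀ v ∈ W, Cfsg.hermForm n F q u v = 0) → u = 0) :
    Nonempty (↥((Cfsg.stabilizing (Cfsg.glToMat (Fin n) F) (W : Set (Fin n → F))).subgroupOf
      (Cfsg.GU n F q)) ≃* ↥(Cfsg.GU k F q) × ↥(Cfsg.GU (n - k) F q)) := by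
  classical
  have hq := two_le_of_card_sq hF
  let c : Fin k ⊕ Fin (n - k) ≃ Fin n := finSumFinEquiv.trans (finCongr (Nat.add_sub_cancel' hk))
  obtain ⟨E⟩ := nonempty_stab_mulEquiv_prod c (guToMat n F q) (guToMat k F q)
    (guToMat (n - k) F q) (guToMat_injective n) (guToMat_injective k) (guToMat_injective (n - k))
    (Cfsg.hermForm n F q) (Cfsg.hermForm k F q) (Cfsg.hermForm (n - k) F q) (gu_char hF n)
    (gu_char hF k) (gu_char hF (n - k)) (hermForm_split c)
    (by intro x; simp [Cfsg.hermForm, show q ≠ 0 by omega]) (by intro y; simp [Cfsg.hermForm]) (by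
      intro y hy
      exact (hermB_nondegenerate hF k).1 y hy)
  obtain ⟨x, hx1, hx2, hx3⟩ := exists_orthonormal_frame hF n k W hWk hW
  have hy : LinearIndependent F (fun a : Fin k =>
      jn c (Pi.single a (1 : F)) (0 : Fin (n - k) → F)) := by
    have h1 : (fun a : Fin k => jn c (Pi.single a (1 : F)) (0 : Fin (n - k) → F)) =
      jnL (F := F) c ∘ (Pi.basisFun F (Fin k)) := by
      funext a
      simp [jnL]
    rw [h1]
    apply (Pi.basisFun F (Fin k)).linearIndependent.map'
    rw [LinearMap.ker_eq_bot]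
    intro u v huv
    have := congrArg (p1 c) huv
    simpa [jnL] using this
  obtain ⟨A, hA⟩ := exists_gu_of_frames hF n _ x hy hx1 (by
    intro a b
    rw [hx3, hermForm_split c, p1_jn, p1_jn, p2_jn]
    simp [Cfsg.hermForm])
  obtain ⟨E2⟩ := nonempty_stabilizing_conj (guToMat n F q) _ (W : Set (Fin n → F)) A
    (mem_block_iff_of_frame (guToMat n F q) c A W (by rw [hA, hx2]))
  have heq : (Cfsg.stabilizing (Cfsg.glToMat (Fin n) F) (W : Set (Fin n → F))).subgroupOf
      (Cfsg.GU n F q) = Cfsg.stabilizing (guToMat n F q) (W : Set (Fin n → F)) :=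
    Subgroup.ext fun _ => Iff.rfl
  exact ⟨(MulEquiv.subgroupCongr heq).trans (E2.trans E)⟩

end Cfsg.Agent.Lib.Helper5
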