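import Mathlib
import Cfsg.Agent.Lib.Helper5.SUCenter

set_option autoImplicit false

/-! # Matrices commuting with `SU_n(q)` are scalar; the centre of `GU_n(q)` -/

namespace Cfsg.Agent.Lib.Helper5

open Matrix Cfsg.Agent.Lib.Helper13

variable {F : Type*} [Field F] [Fintype F] {q n : ℕ}

/-- A matrix commuting with `SU_n(q)` is scalar. -/
lemma matrix_scalar_of_commute_SU (hF : Fintype.card F = q ^ 2) (M : Matrix (Fin n) (Fin n) F)
    (hz : ∀ s : Cfsg.SU n F q, s.1.1 * M = M * s.1.1) :
    ∃ a : F, M = Matrix.scalar (Fin n) a := by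
  obtain ⟨l, hl0, hl1, hl2⟩ := exists_norm_one_sq_ne_one hF
  -- off-diagonal entries vanish
  have hoff : ∀ i j, i ≠ j → M i j = 0 := by
    intro i j hij
    let d : Fin n → F := Function.update (Function.update (fun _ => 1) i l) j l⁻¹
    have hdi : d i = l := by simp [d, hij]
    have hdj : d j = l⁻¹ := by simp [d]
    have hdet : (Matrix.diagonal d).det = 1 := by
      rw [Matrix.det_diagonal]
      simp only [d]
      rw [Finset.prod_update_of_mem (Finset.mem_univ _)]
      rw [Finset.prod_update_of_mem (by simp [hij])]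
      simp [hl0]
    have hd : ∀ k, d k ^ (q + 1) = 1 := by
      intro k
      by_cases hkj : k = j
      · subst hkj; rw [hdj, inv_pow, hl1, inv_one]
      · by_cases hki : k = i
        · subst hki; rw [hdi, hl1]
        · simp [d, hkj, hki]
    have h1 := congrArg (fun s : Matrix (Fin n) (Fin n) F => s i j)
      (hz (mkSU (Matrix.diagonal d) hdet (diagonal_preserves d hd)))
    simp only [mkSU, Matrix.diagonal_mul, Matrix.mul_diagonal, hdi, hdj] at h1
    have h2 : M i j * (l ^ 2 - 1) = 0 := by
      field_simp at h1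
      linear_combination h1
    rcases mul_eq_zero.1 h2 with h | h
    · exact h
    · exact absurd (sub_eq_zero.1 h) hl2
  -- diagonal entries agree
  have hdiag : ∀ i j, i ≠ j → M i i = M j j := by
    intro i j hij
    let d : Fin n → F := Function.update (fun _ => 1) i (-1)
    have hdet : (Matrix.swap F i j * Matrix.diagonal d).det = 1 := by
      rw [Matrix.det_mul, Matrix.det_diagonal, Matrix.swap, Matrix.det_permutation,
        Equiv.Perm.sign_swap hij]
      simp only [d]
      rw [Finset.prod_update_of_mem (Finset.mem_univ _)]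
      simp
    have hd : ∀ k, d k ^ (q + 1) = 1 := by
      intro k
      by_cases hki : k = i
      · subst hki; simp [d, neg_one_pow_q_add_one hF]
      · simp [d, hki]
    have h1 := congrArg (fun s : Matrix (Fin n) (Fin n) F => s i j)
      (hz (mkSU (Matrix.swap F i j * Matrix.diagonal d) hdet (by
        intro u v
        rw [← Matrix.mulVec_mulVec, ← Matrix.mulVec_mulVec, swap_preserves,
          diagonal_preserves d hd])))
    simp only [mkSU] at h1
    rw [Matrix.mul_assoc, Matrix.swap_mul_apply_left, Matrix.diagonal_mul, ← Matrix.mul_assoc,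
      Matrix.mul_diagonal, Matrix.mul_swap_apply_right] at h1
    have hdj : d j = 1 := by simp [d, hij.symm]
    rw [hdj] at h1
    simpa using h1.symm
  rcases n with _ | n
  · exact ⟨1, by ext i; exact i.elim0⟩
  refine ⟨M 0 0, ?_⟩
  ext i j
  by_cases hij : i = j
  · subst hij
    by_cases hi : i = 0
    · subst hi; simp
    · rw [hdiag i 0 hi]; simp
  · rw [hoff i j hij]
    simp [hij]

/-- Central elements of `GU_n(q)` are scalar. -/
lemma GU_center_scalar (hF : Fintype.card F = q ^ 2) (z : Cfsg.GU n F q)
    (hz : z ∈ Subgroup.center (Cfsg.GU n F q)) :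
    ∃ a : F, z.1.1 = Matrix.scalar (Fin n) a := by
  apply matrix_scalar_of_commute_SU hF
  intro s
  rw [Subgroup.mem_center_iff] at hz
  have := congrArg (fun g : Cfsg.GU n F q => g.1.1) (hz (suToGU n F q s))
  exact this

/-- Scalar matrices of norm one as elements of `GU_n(q)`. -/
noncomputable def scalarGU (n : ℕ) {q : ℕ} (a : Fˣ) (ha : a ^ (q + 1) = 1) : Cfsg.GU n F q :=
  ⟨⟨Matrix.scalar (Fin n) (a : F), Matrix.scalar (Fin n) ((a⁻¹ : Fˣ) : F),
      by rw [← map_mul, Units.mul_inv, map_one], by rw [← map_mul, Units.inv_mul, map_one]⟩,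
    scalar_preserves (a : F) (by have := congrArg Units.val ha; simpa using this)⟩

omit [Fintype F] in
lemma scalarGU_coe (a : Fˣ) (ha : a ^ (q + 1) = 1) :
    (scalarGU n a ha).1.1 = Matrix.scalar (Fin n) (a : F) := rfl

omit [Fintype F] in
lemma scalarGU_mem_center (a : Fˣ) (ha : a ^ (q + 1) = 1) :
    scalarGU n a ha ∈ Subgroup.center (Cfsg.GU n F q) := by
  rw [Subgroup.mem_center_iff]
  intro g
  apply Subtype.ext
  apply Units.ext
  change g.1.1 * Matrix.scalar (Fin n) (a : F) = Matrix.scalar (Fin n) (a : F) * g.1.1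
  exact ((Matrix.scalar_commute (a : F) (fun r => mul_comm _ _) g.1.1)).symm

omit [Fintype F] in
lemma detGU_scalarGU (a : Fˣ) (ha : a ^ (q + 1) = 1) :
    detGU n F q (scalarGU n a ha) = a ^ n := by
  apply Units.ext
  change (Matrix.scalar (Fin n) (a : F)).det = _
  rw [Matrix.scalar_apply, Matrix.det_diagonal]
  simp

end Cfsg.Agent.Lib.Helper5
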