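import Mathlib

set_option autoImplicit false

/-! Arithmetic for `|G| < |G|_p ^ 3` and `|G|^3 < |G|_p ^ 8` for groups of Lie type. -/

namespace Cfsg.Agent.Lib.Helper5.LieOrd

/-- the conclusion, for a number `g`. -/
def Good (p g : ℕ) : Prop := g < p ^ (3 * g.factorization p)

def Good8 (p g : ℕ) : Prop := g ^ 3 < p ^ (8 * g.factorization p)

lemma core {p f q N M c g m : ℕ} (hp : p.Prime) (hq : q = p ^ f)
    (h : c * g = q ^ N * m) (hc : ¬ p ∣ c) (hm : ¬ p ∣ m) (hlt : m < c * q ^ M) :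
    g.factorization p = f * N ∧ g < p ^ (f * (N + M)) := by
  have hc0 : c ≠ 0 := fun h0 => hc (h0 ▸ dvd_zero p)
  have hm0 : m ≠ 0 := fun h0 => hm (h0 ▸ dvd_zero p)
  have hq0 : q ≠ 0 := by rw [hq]; exact pow_ne_zero _ hp.ne_zero
  have hg0 : g ≠ 0 := by
    rintro rfl
    rw [mul_zero] at h
    exact (mul_ne_zero (pow_ne_zero _ hq0) hm0) h.symm
  constructor
  · have h1 : (c * g).factorization p = (q ^ N * m).factorization p := by rw [h]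
    rw [Nat.factorization_mul hc0 hg0, Nat.factorization_mul (pow_ne_zero _ hq0) hm0] at h1
    simp only [Finsupp.add_apply] at h1
    rw [Nat.factorization_eq_zero_of_not_dvd hc, Nat.factorization_eq_zero_of_not_dvd hm, hq,
      ← pow_mul, hp.factorization_pow] at h1
    simpa using h1
  · have h2 : c * g < c * (q ^ N * q ^ M) := by
      rw [h]
      calc q ^ N * m < q ^ N * (c * q ^ M) := by
            exact Nat.mul_lt_mul_of_pos_left hlt (pow_pos (Nat.pos_of_ne_zero hq0) _)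
        _ = c * (q ^ N * q ^ M) := by ring
    have h3 := Nat.lt_of_mul_lt_mul_left h2
    rw [← pow_add, hq, ← pow_mul] at h3
    exact h3

lemma good_of {p f N M g : ℕ} (hp : p.Prime) (h1 : g.factorization p = f * N)
    (h2 : g < p ^ (f * (N + M))) (hM : M ≤ 2 * N) : Good p g := by
  unfold Good
  rw [h1]
  refine lt_of_lt_of_le h2 (Nat.pow_le_pow_right hp.pos ?_)
  calc f * (N + M) ≤ f * (3 * N) := Nat.mul_le_mul_left _ (by omega)
    _ = 3 * (f * N) := by ring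

lemma good8_of {p f N M g : ℕ} (hp : p.Prime) (h1 : g.factorization p = f * N)
    (h2 : g < p ^ (f * (N + M))) (hM : 3 * M ≤ 5 * N) : Good8 p g := by
  unfold Good8
  rw [h1]
  have h3 : g ^ 3 < (p ^ (f * (N + M))) ^ 3 := Nat.pow_lt_pow_left h2 (by norm_num)
  refine lt_of_lt_of_le h3 ?_
  rw [← pow_mul]
  refine Nat.pow_le_pow_right hp.pos ?_
  calc f * (N + M) * 3 = f * (3 * N + 3 * M) := by ring
    _ ≤ f * (8 * N) := Nat.mul_le_mul_left _ (by omega)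
    _ = 8 * (f * N) := by ring

/-- packaged. -/
lemma both {p f q N M c g m : ℕ} (hp : p.Prime) (hq : q = p ^ f)
    (h : c * g = q ^ N * m) (hc : ¬ p ∣ c) (hm : ¬ p ∣ m) (hlt : m < c * q ^ M)
    (hM : 3 * M ≤ 5 * N) : Good p g ∧ Good8 p g := by
  obtain ⟨h1, h2⟩ := core hp hq h hc hm hlt
  exact ⟨good_of hp h1 h2 (by omega), good8_of hp h1 h2 hM⟩

section basic

variable {p f q : ℕ}

lemma dvd_q (hq : q = p ^ f) (hf : 1 ≤ f) : p ∣ q := by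
  rw [hq]; exact dvd_pow_self p (by omega)

lemma two_le_q (hp : p.Prime) (hq : q = p ^ f) (hf : 1 ≤ f) : 2 ≤ q := by
  rw [hq]
  calc 2 ≤ p := hp.two_le
    _ = p ^ 1 := (pow_one p).symm
    _ ≤ p ^ f := Nat.pow_le_pow_right hp.pos hf

lemma ndvd_sub (hp : p.Prime) (hpq : p ∣ q) (hq2 : 2 ≤ q) {k : ℕ} (hk : 1 ≤ k) : ¬ p ∣ q ^ k - 1 := by
  intro h
  have h1 : p ∣ q ^ k := dvd_trans hpq (dvd_pow_self q (by omega))
  have h2 : 1 ≤ q ^ k := Nat.one_le_pow _ _ (by omega)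
  have h3 : p ∣ q ^ k - (q ^ k - 1) := Nat.dvd_sub h1 h
  have h4 : q ^ k - (q ^ k - 1) = 1 := by omega
  rw [h4] at h3
  exact hp.one_lt.ne' (Nat.dvd_one.1 h3)

lemma ndvd_add (hp : p.Prime) (hpq : p ∣ q) {k : ℕ} (hk : 1 ≤ k) : ¬ p ∣ q ^ k + 1 := by
  intro h
  have h1 : p ∣ q ^ k := dvd_trans hpq (dvd_pow_self q (by omega))
  have h3 : p ∣ 1 := (Nat.dvd_add_right h1).1 h
  exact hp.one_lt.ne' (Nat.dvd_one.1 h3)

lemma ndvd_mul (hp : p.Prime) {a b : ℕ} (ha : ¬ p ∣ a) (hb : ¬ p ∣ b) : ¬ p ∣ a * b := by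
  intro h
  rcases hp.dvd_mul.1 h with h | h
  · exact ha h
  · exact hb h

lemma ndvd_of_dvd {a b : ℕ} (hb : ¬ p ∣ b) (hab : a ∣ b) : ¬ p ∣ a := fun h => hb (dvd_trans h hab)

lemma sub_lt_pow (hq2 : 2 ≤ q) (k : ℕ) : q ^ k - 1 < q ^ k := by
  have : 1 ≤ q ^ k := Nat.one_le_pow _ _ (by omega)
  omega

lemma sub_le_pow (k : ℕ) : q ^ k - 1 ≤ q ^ k := Nat.sub_le _ _

lemma add_le_pow (hq2 : 2 ≤ q) (k : ℕ) : q ^ k + 1 ≤ q ^ (k + 1) := by
  have : 1 ≤ q ^ k := Nat.one_le_pow _ _ (by omega)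
  calc q ^ k + 1 ≤ q ^ k * 2 := by omega
    _ ≤ q ^ k * q := Nat.mul_le_mul_left _ hq2
    _ = q ^ (k + 1) := (pow_succ q k).symm

lemma sub_pos' (hq2 : 2 ≤ q) {k : ℕ} (hk : 1 ≤ k) : 0 < q ^ k - 1 := by
  have : q ^ 1 ≤ q ^ k := Nat.pow_le_pow_right (by omega) hk
  rw [pow_one] at this
  omega

/-- `a ≤ q^i`, `b ≤ q^j` gives `a*b ≤ q^(i+j)`. -/
lemma mul_le_pow {a b i j : ℕ} (ha : a ≤ q ^ i) (hb : b ≤ q ^ j) : a * b ≤ q ^ (i + j) := by
  rw [pow_add]; exact Nat.mul_le_mul ha hb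

lemma mul_lt_pow {a b i j : ℕ} (ha : a < q ^ i) (hb : b ≤ q ^ j) (hb0 : 0 < b) : a * b < q ^ (i + j) := by
  rw [pow_add]
  exact Nat.mul_lt_mul_of_lt_of_le ha hb (lt_of_lt_of_le hb0 hb)

lemma mul_lt_pow' {a b i j : ℕ} (ha : a ≤ q ^ i) (hb : b < q ^ j) (ha0 : 0 < a) : a * b < q ^ (i + j) := by
  rw [pow_add]
  exact Nat.mul_lt_mul_of_le_of_lt ha hb (lt_of_lt_of_le ha0 ha)

end basic

section prods

variable {p f q : ℕ}

/-- `∏_{i<m} (q^(2(i+1)) - 1)`. -/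
def PS (q m : ℕ) : ℕ := ∏ i ∈ Finset.range m, (q ^ (2 * (i + 1)) - 1)

lemma PS_ndvd (hp : p.Prime) (hpq : p ∣ q) (hq2 : 2 ≤ q) (m : ℕ) : ¬ p ∣ PS q m := by
  induction m with
  | zero => simpa [PS] using hp.one_lt.ne'
  | succ m ih =>
    unfold PS at ih ⊢
    rw [Finset.prod_range_succ]
    exact ndvd_mul hp ih (ndvd_sub hp hpq hq2 (by omega))

lemma PS_pos (hq2 : 2 ≤ q) (m : ℕ) : 0 < PS q m := by
  unfold PS
  exact Finset.prod_pos (fun i _ => sub_pos' hq2 (by omega))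

lemma PS_le (m : ℕ) : PS q m ≤ q ^ (m * (m + 1)) := by
  induction m with
  | zero => simp [PS]
  | succ m ih =>
    unfold PS at ih ⊢
    rw [Finset.prod_range_succ]
    have := mul_le_pow ih (sub_le_pow (q := q) (2 * (m + 1)))
    calc _ ≤ q ^ (m * (m + 1) + 2 * (m + 1)) := this
      _ = q ^ ((m + 1) * (m + 1 + 1)) := by congr 1; ring

lemma PS_lt (hq2 : 2 ≤ q) {m : ℕ} (hm : 1 ≤ m) : PS q m < q ^ (m * (m + 1)) := by
  obtain ⟨k, rfl⟩ : ∃ k, m = k + 1 := ⟨m - 1, by omega⟩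
  unfold PS
  rw [Finset.prod_range_succ]
  have := mul_lt_pow' (PS_le (q := q) k) (sub_lt_pow hq2 (2 * (k + 1))) (PS_pos hq2 k)
  calc _ < q ^ (k * (k + 1) + 2 * (k + 1)) := this
    _ = q ^ ((k + 1) * (k + 1 + 1)) := by congr 1; ring

/-- `∏_{i<n} (q^(i+1) - 1)`. -/
def PL (q n : ℕ) : ℕ := ∏ i ∈ Finset.range n, (q ^ (i + 1) - 1)

lemma PL_ndvd (hp : p.Prime) (hpq : p ∣ q) (hq2 : 2 ≤ q) (m : ℕ) : ¬ p ∣ PL q m := by
  induction m with
  | zero => simpa [PL] using hp.one_lt.ne'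
  | succ m ih =>
    unfold PL at ih ⊢
    rw [Finset.prod_range_succ]
    exact ndvd_mul hp ih (ndvd_sub hp hpq hq2 (by omega))

/-- `PL q (n+1) ≤ (q-1) q^(Σ_{i<n} (i+2))`. -/
lemma PL_le (n : ℕ) : PL q (n + 1) ≤ (q - 1) * q ^ (∑ i ∈ Finset.range n, (i + 2)) := by
  induction n with
  | zero => simp [PL]
  | succ n ih =>
    unfold PL at ih ⊢
    rw [Finset.prod_range_succ, Finset.sum_range_succ, pow_add q _ (n + 2), ← mul_assoc]
    exact Nat.mul_le_mul ih (sub_le_pow _)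

lemma PL_lt (hq2 : 2 ≤ q) (n : ℕ) :
    PL q (n + 2) < (q - 1) * q ^ (∑ i ∈ Finset.range (n + 1), (i + 2)) := by
  have h := PL_le (q := q) n
  unfold PL at h ⊢
  rw [Finset.prod_range_succ, Finset.sum_range_succ, pow_add q _ (n + 2), ← mul_assoc]
  refine Nat.mul_lt_mul_of_le_of_lt h (sub_lt_pow hq2 _) (lt_of_lt_of_le ?_ h)
  exact Finset.prod_pos (fun i _ => sub_pos' hq2 (by omega))

/-- `∏_{i<n} (q^(i+1) ± 1)` (unitary). -/
def PU (q n : ℕ) : ℕ := ∏ i ∈ Finset.range n, (if Even i then q ^ (i + 1) + 1 else q ^ (i + 1) - 1)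

lemma PU_ndvd (hp : p.Prime) (hpq : p ∣ q) (hq2 : 2 ≤ q) (m : ℕ) : ¬ p ∣ PU q m := by
  induction m with
  | zero => simpa [PU] using hp.one_lt.ne'
  | succ m ih =>
    unfold PU at ih ⊢
    rw [Finset.prod_range_succ]
    refine ndvd_mul hp ih ?_
    split_ifs
    · exact ndvd_add hp hpq (by omega)
    · exact ndvd_sub hp hpq hq2 (by omega)

lemma PU_pos (hq2 : 2 ≤ q) (m : ℕ) : 0 < PU q m := by
  unfold PU
  refine Finset.prod_pos (fun i _ => ?_)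
  split_ifs
  · omega
  · exact sub_pos' hq2 (by omega)

lemma pair_lt (hq2 : 2 ≤ q) {k : ℕ} (hk : 1 ≤ k) : (q ^ k - 1) * (q ^ (k + 1) + 1) < q ^ (k + (k + 1)) := by
  have h1 : 1 ≤ q ^ k := Nat.one_le_pow _ _ (by omega)
  obtain ⟨a, ha⟩ : ∃ a, q ^ k = a + 1 := ⟨q ^ k - 1, by omega⟩
  have h2 : q ^ (k + 1) = (a + 1) * q := by rw [pow_succ, ha]
  rw [pow_add q k (k + 1), h2, ha]
  simp only [Nat.add_sub_cancel]
  nlinarith

/-- odd case. -/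
lemma PU_odd_le (hq2 : 2 ≤ q) (k : ℕ) : PU q (2 * k + 1) ≤ (q + 1) * q ^ (2 * k ^ 2 + 3 * k) := by
  induction k with
  | zero => simp [PU]
  | succ k ih =>
    have e : 2 * (k + 1) + 1 = (2 * k + 1) + 1 + 1 := by ring
    rw [e]
    unfold PU at ih ⊢
    rw [Finset.prod_range_succ, Finset.prod_range_succ]
    have h1 : ¬ Even (2 * k + 1) := by
      rw [Nat.not_even_iff_odd]; exact ⟨k, rfl⟩
    have h2 : Even (2 * k + 1 + 1) := ⟨k + 1, by ring⟩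
    rw [if_neg h1, if_pos h2, mul_assoc]
    have h3 := (pair_lt hq2 (k := 2 * k + 1 + 1) (by omega)).le
    calc _ ≤ ((q + 1) * q ^ (2 * k ^ 2 + 3 * k)) * q ^ (2 * k + 1 + 1 + (2 * k + 1 + 1 + 1)) :=
          Nat.mul_le_mul ih h3
      _ = (q + 1) * q ^ (2 * (k + 1) ^ 2 + 3 * (k + 1)) := by
          rw [mul_assoc, ← pow_add]; congr 2; ring

lemma PU_odd_lt (hq2 : 2 ≤ q) (k : ℕ) : PU q (2 * (k + 1) + 1) < (q + 1) * q ^ (2 * (k + 1) ^ 2 + 3 * (k + 1)) := by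
  have ih := PU_odd_le hq2 k
  have hpos := PU_pos hq2 (2 * k + 1)
  have e : 2 * (k + 1) + 1 = (2 * k + 1) + 1 + 1 := by ring
  rw [e]
  unfold PU at ih hpos ⊢
  rw [Finset.prod_range_succ, Finset.prod_range_succ]
  have h1 : ¬ Even (2 * k + 1) := by
    rw [Nat.not_even_iff_odd]; exact ⟨k, rfl⟩
  have h2 : Even (2 * k + 1 + 1) := ⟨k + 1, by ring⟩
  rw [if_neg h1, if_pos h2, mul_assoc]
  have h3 := (pair_lt hq2 (k := 2 * k + 1 + 1) (by omega))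
  calc _ < ((q + 1) * q ^ (2 * k ^ 2 + 3 * k)) * q ^ (2 * k + 1 + 1 + (2 * k + 1 + 1 + 1)) :=
        Nat.mul_lt_mul_of_le_of_lt ih h3 (lt_of_lt_of_le hpos ih)
    _ = (q + 1) * q ^ (2 * (k + 1) ^ 2 + 3 * (k + 1)) := by
        rw [mul_assoc, ← pow_add]; congr 2; ring

lemma PU_even_lt (hq2 : 2 ≤ q) (k : ℕ) : PU q (2 * k + 2) < (q + 1) * q ^ (2 * k ^ 2 + 5 * k + 2) := by
  have ih := PU_odd_le hq2 k
  have hpos := PU_pos hq2 (2 * k + 1)
  have e : 2 * k + 2 = (2 * k + 1) + 1 := by ring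
  rw [e]
  unfold PU at ih hpos ⊢
  rw [Finset.prod_range_succ]
  have h1 : ¬ Even (2 * k + 1) := by
    rw [Nat.not_even_iff_odd]; exact ⟨k, rfl⟩
  rw [if_neg h1]
  calc _ < ((q + 1) * q ^ (2 * k ^ 2 + 3 * k)) * q ^ (2 * k + 1 + 1) :=
        Nat.mul_lt_mul_of_le_of_lt ih (sub_lt_pow hq2 _) (lt_of_lt_of_le hpos ih)
    _ = (q + 1) * q ^ (2 * k ^ 2 + 5 * k + 2) := by
        rw [mul_assoc, ← pow_add]; congr 2; ring

end prods

end Cfsg.Agent.Lib.Helper5.LieOrd
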