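import Mathlib
import Cfsg.Agent.Lib.Helper5.LieOrd1

set_option autoImplicit false

/-! The families, numerically. -/

namespace Cfsg.Agent.Lib.Helper5.LieOrd

variable {p f q : ℕ}

lemma prod_psl (hq2 : 2 ≤ q) (n : ℕ) :
    ∏ i : Fin n, (q ^ n - q ^ (i : ℕ)) = q ^ (∑ i ∈ Finset.range n, i) * PL q n := by
  rw [Fin.prod_univ_eq_prod_range (fun i => q ^ n - q ^ i) n, ← Finset.prod_pow_eq_pow_sum]
  unfold PL
  rw [← Finset.prod_range_reflect (fun i => q ^ (i + 1) - 1) n, ← Finset.prod_mul_distrib]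
  refine Finset.prod_congr rfl (fun i hi => ?_)
  have hi' : i < n := Finset.mem_range.1 hi
  have e : n - 1 - i + 1 = n - i := by omega
  rw [e, Nat.mul_sub, mul_one, ← pow_add]
  congr 2
  omega

lemma sum_id2 (n : ℕ) : (∑ i ∈ Finset.range (n + 1), (i + 2)) * 2 = (n + 1) * (n + 4) := by
  rw [Finset.sum_add_distrib, add_mul, Finset.sum_range_id_mul_two]
  simp only [Finset.sum_const, Finset.card_range, smul_eq_mul, Nat.add_sub_cancel]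
  ring

lemma fam_psl (hp : p.Prime) (hq : q = p ^ f) (hf : 1 ≤ f) {n g : ℕ} (hn : 2 ≤ n)
    (h : Nat.gcd n (q - 1) * ((q - 1) * g) = ∏ i : Fin n, (q ^ n - q ^ (i : ℕ))) :
    g.factorization p = f * (∑ i ∈ Finset.range n, i) ∧ Good p g ∧ (3 ≤ n → Good8 p g) := by
  have hq2 := two_le_q hp hq hf
  have hpq := dvd_q hq hf
  obtain ⟨k, rfl⟩ : ∃ k, n = k + 2 := ⟨n - 2, by omega⟩
  rw [prod_psl hq2, ← mul_assoc] at h
  have h1 : ¬ p ∣ q - 1 := by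
    have := ndvd_sub hp hpq hq2 (k := 1) le_rfl
    rwa [pow_one] at this
  have hc : ¬ p ∣ Nat.gcd (k + 2) (q - 1) * (q - 1) :=
    ndvd_mul hp (ndvd_of_dvd h1 (Nat.gcd_dvd_right _ _)) h1
  have hg : 1 ≤ Nat.gcd (k + 2) (q - 1) := Nat.gcd_pos_of_pos_left _ (by omega)
  have hlt : PL q (k + 2) < Nat.gcd (k + 2) (q - 1) * (q - 1) * q ^ (∑ i ∈ Finset.range (k + 1), (i + 2)) := by
    refine lt_of_lt_of_le (PL_lt hq2 k) ?_
    rw [mul_assoc]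
    exact Nat.le_mul_of_pos_left _ hg
  obtain ⟨e1, e2⟩ := core hp hq h hc (PL_ndvd hp hpq hq2 _) hlt
  have hN := Finset.sum_range_id_mul_two (k + 2)
  have hM := sum_id2 k
  have hN' : (∑ i ∈ Finset.range (k + 2), i) * 2 = (k + 2) * (k + 1) := by
    rw [hN]; rfl
  refine ⟨e1, good_of hp e1 e2 ?_, fun h3 => good8_of hp e1 e2 ?_⟩
  · nlinarith
  · have : 1 ≤ k := by omega
    nlinarith

lemma fam_psu (hp : p.Prime) (hq : q = p ^ f) (hf : 1 ≤ f) {n g : ℕ} (hn : 3 ≤ n)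
    (h : Nat.gcd n (q + 1) * ((q + 1) * g) = q ^ (n * (n - 1) / 2) * PU q n) :
    Good p g ∧ Good8 p g := by
  have hq2 := two_le_q hp hq hf
  have hpq := dvd_q hq hf
  rw [← mul_assoc] at h
  have h1 : ¬ p ∣ q + 1 := by
    have := ndvd_add hp hpq (k := 1) le_rfl
    rwa [pow_one] at this
  have hc : ¬ p ∣ Nat.gcd n (q + 1) * (q + 1) :=
    ndvd_mul hp (ndvd_of_dvd h1 (Nat.gcd_dvd_right _ _)) h1
  have hg : 1 ≤ Nat.gcd n (q + 1) := Nat.gcd_pos_of_pos_left _ (by omega)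
  rcases Nat.even_or_odd' n with ⟨k, rfl | rfl⟩
  · obtain ⟨j, rfl⟩ : ∃ j, k = j + 1 := ⟨k - 1, by omega⟩
    have hj : 1 ≤ j := by omega
    have e : 2 * (j + 1) = 2 * j + 2 := by ring
    have eN : 2 * (j + 1) * (2 * (j + 1) - 1) / 2 = 2 * j ^ 2 + 3 * j + 1 := by
      have : 2 * (j + 1) - 1 = 2 * j + 1 := by omega
      rw [this, mul_assoc, Nat.mul_div_cancel_left _ (by norm_num)]
      ring
    rw [eN] at h
    have hlt : PU q (2 * (j + 1)) < Nat.gcd (2 * (j + 1)) (q + 1) * (q + 1) * q ^ (2 * j ^ 2 + 5 * j + 2) := by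
      rw [e]
      refine lt_of_lt_of_le (PU_even_lt hq2 j) ?_
      rw [mul_assoc]
      exact Nat.le_mul_of_pos_left _ (by rw [← e]; exact hg)
    exact both hp hq h hc (PU_ndvd hp hpq hq2 _) hlt (by nlinarith)
  · obtain ⟨j, rfl⟩ : ∃ j, k = j + 1 := ⟨k - 1, by omega⟩
    have eN : (2 * (j + 1) + 1) * (2 * (j + 1) + 1 - 1) / 2 = 2 * (j + 1) ^ 2 + (j + 1) := by
      have : 2 * (j + 1) + 1 - 1 = 2 * (j + 1) := by omega
      rw [this, mul_comm, mul_assoc, Nat.mul_div_cancel_left _ (by norm_num)]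
      ring
    rw [eN] at h
    have hlt : PU q (2 * (j + 1) + 1) <
        Nat.gcd (2 * (j + 1) + 1) (q + 1) * (q + 1) * q ^ (2 * (j + 1) ^ 2 + 3 * (j + 1)) := by
      refine lt_of_lt_of_le (PU_odd_lt hq2 j) ?_
      rw [mul_assoc]
      exact Nat.le_mul_of_pos_left _ hg
    exact both hp hq h hc (PU_ndvd hp hpq hq2 _) hlt (by nlinarith)

lemma fam_psp (hp : p.Prime) (hq : q = p ^ f) (hf : 1 ≤ f) {m c g : ℕ} (hm : 2 ≤ m) (hc : ¬ p ∣ c)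
    (h : c * g = q ^ (m ^ 2) * PS q m) : Good p g ∧ Good8 p g := by
  have hq2 := two_le_q hp hq hf
  have hpq := dvd_q hq hf
  have hc1 : 1 ≤ c := Nat.pos_of_ne_zero (fun h0 => hc (h0 ▸ dvd_zero p))
  have hlt : PS q m < c * q ^ (m * (m + 1)) :=
    lt_of_lt_of_le (PS_lt hq2 (by omega)) (Nat.le_mul_of_pos_left _ hc1)
  exact both hp hq h hc (PS_ndvd hp hpq hq2 _) hlt (by nlinarith)

lemma fam_plus (hp : p.Prime) (hq : q = p ^ f) (hf : 1 ≤ f) {m g : ℕ} (hm : 4 ≤ m)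
    (h : Nat.gcd 4 (q ^ m - 1) * g = q ^ (m * (m - 1)) * (q ^ m - 1) * PS q (m - 1)) :
    Good p g ∧ Good8 p g := by
  have hq2 := two_le_q hp hq hf
  have hpq := dvd_q hq hf
  obtain ⟨k, rfl⟩ : ∃ k, m = k + 1 := ⟨m - 1, by omega⟩
  simp only [Nat.add_sub_cancel] at h
  rw [mul_assoc] at h
  have h1 : ¬ p ∣ q ^ (k + 1) - 1 := ndvd_sub hp hpq hq2 (by omega)
  have hc : ¬ p ∣ Nat.gcd 4 (q ^ (k + 1) - 1) := ndvd_of_dvd h1 (Nat.gcd_dvd_right _ _)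
  have hc1 : 1 ≤ Nat.gcd 4 (q ^ (k + 1) - 1) := Nat.gcd_pos_of_pos_left _ (by norm_num)
  have hlt : (q ^ (k + 1) - 1) * PS q k < Nat.gcd 4 (q ^ (k + 1) - 1) * q ^ ((k + 1) + k * (k + 1)) :=
    lt_of_lt_of_le (mul_lt_pow (sub_lt_pow hq2 _) (PS_le k) (PS_pos hq2 k)) (Nat.le_mul_of_pos_left _ hc1)
  exact both hp hq h hc (ndvd_mul hp h1 (PS_ndvd hp hpq hq2 _)) hlt (by nlinarith)

lemma fam_minus (hp : p.Prime) (hq : q = p ^ f) (hf : 1 ≤ f) {m g : ℕ} (hm : 4 ≤ m)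
    (h : Nat.gcd 4 (q ^ m + 1) * g = q ^ (m * (m - 1)) * (q ^ m + 1) * PS q (m - 1)) :
    Good p g ∧ Good8 p g := by
  have hq2 := two_le_q hp hq hf
  have hpq := dvd_q hq hf
  obtain ⟨k, rfl⟩ : ∃ k, m = k + 1 := ⟨m - 1, by omega⟩
  simp only [Nat.add_sub_cancel] at h
  rw [mul_assoc] at h
  have h1 : ¬ p ∣ q ^ (k + 1) + 1 := ndvd_add hp hpq (by omega)
  have hc : ¬ p ∣ Nat.gcd 4 (q ^ (k + 1) + 1) := ndvd_of_dvd h1 (Nat.gcd_dvd_right _ _)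
  have hc1 : 1 ≤ Nat.gcd 4 (q ^ (k + 1) + 1) := Nat.gcd_pos_of_pos_left _ (by norm_num)
  have hlt : (q ^ (k + 1) + 1) * PS q k < Nat.gcd 4 (q ^ (k + 1) + 1) * q ^ ((k + 1 + 1) + k * (k + 1)) :=
    lt_of_lt_of_le (mul_lt_pow' (add_le_pow hq2 _) (PS_lt hq2 (by omega)) (by omega))
      (Nat.le_mul_of_pos_left _ hc1)
  exact both hp hq h hc (ndvd_mul hp h1 (PS_ndvd hp hpq hq2 _)) hlt (by nlinarith)

section exc

variable (hp : p.Prime) (hq : q = p ^ f) (hf : 1 ≤ f)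
include hp hq hf

lemma fam_g2 {g : ℕ} (h : g = q ^ 6 * (q ^ 2 - 1) * (q ^ 6 - 1)) : Good p g ∧ Good8 p g := by
  have hq2 := two_le_q hp hq hf
  have hpq := dvd_q hq hf
  have h' : 1 * g = q ^ 6 * ((q ^ 2 - 1) * (q ^ 6 - 1)) := by rw [h]; ring
  have hs : ∀ k, 1 ≤ k → ¬ p ∣ q ^ k - 1 := fun k hk => ndvd_sub hp hpq hq2 hk
  refine both (M := 2 + 6) hp hq h' (by simpa using hp.one_lt.ne') ?_ ?_ (by norm_num)
  · exact ndvd_mul hp (hs _ (by norm_num)) (hs _ (by norm_num))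
  · rw [one_mul]
    exact mul_lt_pow (sub_lt_pow hq2 _) (sub_le_pow _) (sub_pos' hq2 (by norm_num))

lemma fam_f4 {g : ℕ} (h : g = q ^ 24 * (q ^ 2 - 1) * (q ^ 6 - 1) * (q ^ 8 - 1) * (q ^ 12 - 1)) :
    Good p g ∧ Good8 p g := by
  have hq2 := two_le_q hp hq hf
  have hpq := dvd_q hq hf
  have h' : 1 * g = q ^ 24 * ((q ^ 2 - 1) * (q ^ 6 - 1) * (q ^ 8 - 1) * (q ^ 12 - 1)) := by rw [h]; ring
  have hs : ∀ k, 1 ≤ k → ¬ p ∣ q ^ k - 1 := fun k hk => ndvd_sub hp hpq hq2 hk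
  have hpos : ∀ k, 1 ≤ k → 0 < q ^ k - 1 := fun k hk => sub_pos' hq2 hk
  refine both (M := 2 + 6 + 8 + 12) hp hq h' (by simpa using hp.one_lt.ne') ?_ ?_ (by norm_num)
  · exact ndvd_mul hp (ndvd_mul hp (ndvd_mul hp (hs _ (by norm_num)) (hs _ (by norm_num)))
      (hs _ (by norm_num))) (hs _ (by norm_num))
  · rw [one_mul]
    exact mul_lt_pow (mul_lt_pow (mul_lt_pow (sub_lt_pow hq2 _) (sub_le_pow _) (hpos _ (by norm_num)))
      (sub_le_pow _) (hpos _ (by norm_num))) (sub_le_pow _) (hpos _ (by norm_num))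

lemma fam_e6 {c g : ℕ} (hc : ¬ p ∣ c)
    (h : c * g = q ^ 36 * (q ^ 2 - 1) * (q ^ 5 - 1) * (q ^ 6 - 1) * (q ^ 8 - 1) * (q ^ 9 - 1) * (q ^ 12 - 1)) :
    Good p g ∧ Good8 p g := by
  have hq2 := two_le_q hp hq hf
  have hpq := dvd_q hq hf
  have hc1 : 1 ≤ c := Nat.pos_of_ne_zero (fun h0 => hc (h0 ▸ dvd_zero p))
  have h' : c * g = q ^ 36 * ((q ^ 2 - 1) * (q ^ 5 - 1) * (q ^ 6 - 1) * (q ^ 8 - 1) * (q ^ 9 - 1) * (q ^ 12 - 1)) := by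
    rw [h]; ring
  have hs : ∀ k, 1 ≤ k → ¬ p ∣ q ^ k - 1 := fun k hk => ndvd_sub hp hpq hq2 hk
  have hpos : ∀ k, 1 ≤ k → 0 < q ^ k - 1 := fun k hk => sub_pos' hq2 hk
  refine both (M := 2 + 5 + 6 + 8 + 9 + 12) hp hq h' hc ?_ ?_ (by norm_num)
  · exact ndvd_mul hp (ndvd_mul hp (ndvd_mul hp (ndvd_mul hp (ndvd_mul hp (hs _ (by norm_num)) (hs _ (by norm_num)))
      (hs _ (by norm_num))) (hs _ (by norm_num))) (hs _ (by norm_num))) (hs _ (by norm_num))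
  · refine lt_of_lt_of_le ?_ (Nat.le_mul_of_pos_left _ hc1)
    exact mul_lt_pow (mul_lt_pow (mul_lt_pow (mul_lt_pow (mul_lt_pow (sub_lt_pow hq2 _) (sub_le_pow _) (hpos _ (by norm_num)))
      (sub_le_pow _) (hpos _ (by norm_num))) (sub_le_pow _) (hpos _ (by norm_num)))
      (sub_le_pow _) (hpos _ (by norm_num))) (sub_le_pow _) (hpos _ (by norm_num))

lemma fam_e7 {c g : ℕ} (hc : ¬ p ∣ c)
    (h : c * g = q ^ 63 * (q ^ 2 - 1) * (q ^ 6 - 1) * (q ^ 8 - 1) * (q ^ 10 - 1) * (q ^ 12 - 1) * (q ^ 14 - 1) * (q ^ 18 - 1)) :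
    Good p g ∧ Good8 p g := by
  have hq2 := two_le_q hp hq hf
  have hpq := dvd_q hq hf
  have hc1 : 1 ≤ c := Nat.pos_of_ne_zero (fun h0 => hc (h0 ▸ dvd_zero p))
  have h' : c * g = q ^ 63 * ((q ^ 2 - 1) * (q ^ 6 - 1) * (q ^ 8 - 1) * (q ^ 10 - 1) * (q ^ 12 - 1) * (q ^ 14 - 1) * (q ^ 18 - 1)) := by
    rw [h]; ring
  have hs : ∀ k, 1 ≤ k → ¬ p ∣ q ^ k - 1 := fun k hk => ndvd_sub hp hpq hq2 hk
  have hpos : ∀ k, 1 ≤ k → 0 < q ^ k - 1 := fun k hk => sub_pos' hq2 hk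
  refine both (M := 2 + 6 + 8 + 10 + 12 + 14 + 18) hp hq h' hc ?_ ?_ (by norm_num)
  · exact ndvd_mul hp (ndvd_mul hp (ndvd_mul hp (ndvd_mul hp (ndvd_mul hp (ndvd_mul hp (hs _ (by norm_num)) (hs _ (by norm_num)))
      (hs _ (by norm_num))) (hs _ (by norm_num))) (hs _ (by norm_num))) (hs _ (by norm_num))) (hs _ (by norm_num))
  · refine lt_of_lt_of_le ?_ (Nat.le_mul_of_pos_left _ hc1)
    exact mul_lt_pow (mul_lt_pow (mul_lt_pow (mul_lt_pow (mul_lt_pow (mul_lt_pow (sub_lt_pow hq2 _) (sub_le_pow _) (hpos _ (by norm_num)))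
      (sub_le_pow _) (hpos _ (by norm_num))) (sub_le_pow _) (hpos _ (by norm_num)))
      (sub_le_pow _) (hpos _ (by norm_num))) (sub_le_pow _) (hpos _ (by norm_num))) (sub_le_pow _) (hpos _ (by norm_num))

lemma fam_e8 {g : ℕ}
    (h : g = q ^ 120 * (q ^ 2 - 1) * (q ^ 8 - 1) * (q ^ 12 - 1) * (q ^ 14 - 1) * (q ^ 18 - 1) * (q ^ 20 - 1) * (q ^ 24 - 1) * (q ^ 30 - 1)) :
    Good p g ∧ Good8 p g := by
  have hq2 := two_le_q hp hq hf
  have hpq := dvd_q hq hf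
  have h' : 1 * g = q ^ 120 * ((q ^ 2 - 1) * (q ^ 8 - 1) * (q ^ 12 - 1) * (q ^ 14 - 1) * (q ^ 18 - 1) * (q ^ 20 - 1) * (q ^ 24 - 1) * (q ^ 30 - 1)) := by
    rw [h]; ring
  have hs : ∀ k, 1 ≤ k → ¬ p ∣ q ^ k - 1 := fun k hk => ndvd_sub hp hpq hq2 hk
  have hpos : ∀ k, 1 ≤ k → 0 < q ^ k - 1 := fun k hk => sub_pos' hq2 hk
  refine both (M := 2 + 8 + 12 + 14 + 18 + 20 + 24 + 30) hp hq h' (by simpa using hp.one_lt.ne') ?_ ?_ (by norm_num)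
  · exact ndvd_mul hp (ndvd_mul hp (ndvd_mul hp (ndvd_mul hp (ndvd_mul hp (ndvd_mul hp (ndvd_mul hp (hs _ (by norm_num)) (hs _ (by norm_num)))
      (hs _ (by norm_num))) (hs _ (by norm_num))) (hs _ (by norm_num))) (hs _ (by norm_num))) (hs _ (by norm_num))) (hs _ (by norm_num))
  · rw [one_mul]
    exact mul_lt_pow (mul_lt_pow (mul_lt_pow (mul_lt_pow (mul_lt_pow (mul_lt_pow (mul_lt_pow (sub_lt_pow hq2 _) (sub_le_pow _) (hpos _ (by norm_num)))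
      (sub_le_pow _) (hpos _ (by norm_num))) (sub_le_pow _) (hpos _ (by norm_num)))
      (sub_le_pow _) (hpos _ (by norm_num))) (sub_le_pow _) (hpos _ (by norm_num))) (sub_le_pow _) (hpos _ (by norm_num)))
      (sub_le_pow _) (hpos _ (by norm_num))

lemma fam_2e6 {c g : ℕ} (hc : ¬ p ∣ c)
    (h : c * g = q ^ 36 * (q ^ 2 - 1) * (q ^ 5 + 1) * (q ^ 6 - 1) * (q ^ 8 - 1) * (q ^ 9 + 1) * (q ^ 12 - 1)) :
    Good p g ∧ Good8 p g := by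
  have hq2 := two_le_q hp hq hf
  have hpq := dvd_q hq hf
  have hc1 : 1 ≤ c := Nat.pos_of_ne_zero (fun h0 => hc (h0 ▸ dvd_zero p))
  have h' : c * g = q ^ 36 * ((q ^ 2 - 1) * (q ^ 5 + 1) * (q ^ 6 - 1) * (q ^ 8 - 1) * (q ^ 9 + 1) * (q ^ 12 - 1)) := by
    rw [h]; ring
  have hs : ∀ k, 1 ≤ k → ¬ p ∣ q ^ k - 1 := fun k hk => ndvd_sub hp hpq hq2 hk
  have ha : ∀ k, 1 ≤ k → ¬ p ∣ q ^ k + 1 := fun k hk => ndvd_add hp hpq hk
  have hpos : ∀ k, 1 ≤ k → 0 < q ^ k - 1 := fun k hk => sub_pos' hq2 hk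
  refine both (M := 2 + (5 + 1) + 6 + 8 + (9 + 1) + 12) hp hq h' hc ?_ ?_ (by norm_num)
  · exact ndvd_mul hp (ndvd_mul hp (ndvd_mul hp (ndvd_mul hp (ndvd_mul hp (hs _ (by norm_num)) (ha _ (by norm_num)))
      (hs _ (by norm_num))) (hs _ (by norm_num))) (ha _ (by norm_num))) (hs _ (by norm_num))
  · refine lt_of_lt_of_le ?_ (Nat.le_mul_of_pos_left _ hc1)
    exact mul_lt_pow (mul_lt_pow (mul_lt_pow (mul_lt_pow (mul_lt_pow (sub_lt_pow hq2 _) (add_le_pow hq2 _) (by omega))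
      (sub_le_pow _) (hpos _ (by norm_num))) (sub_le_pow _) (hpos _ (by norm_num)))
      (add_le_pow hq2 _) (by omega)) (sub_le_pow _) (hpos _ (by norm_num))

lemma fam_3d4 {g : ℕ} (h : g = q ^ 12 * (q ^ 2 - 1) * (q ^ 6 - 1) * (q ^ 8 + q ^ 4 + 1)) :
    Good p g ∧ Good8 p g := by
  have hq2 := two_le_q hp hq hf
  have hpq := dvd_q hq hf
  have h' : 1 * g = q ^ 12 * ((q ^ 2 - 1) * (q ^ 6 - 1) * (q ^ 8 + q ^ 4 + 1)) := by rw [h]; ring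
  have hs : ∀ k, 1 ≤ k → ¬ p ∣ q ^ k - 1 := fun k hk => ndvd_sub hp hpq hq2 hk
  have hpos : ∀ k, 1 ≤ k → 0 < q ^ k - 1 := fun k hk => sub_pos' hq2 hk
  have h3 : ¬ p ∣ q ^ 8 + q ^ 4 + 1 := by
    intro hd
    have h1 : p ∣ q ^ 8 + q ^ 4 := dvd_add (dvd_trans hpq (dvd_pow_self q (by norm_num)))
      (dvd_trans hpq (dvd_pow_self q (by norm_num)))
    exact hp.one_lt.ne' (Nat.dvd_one.1 ((Nat.dvd_add_right h1).1 hd))
  have h4 : q ^ 8 + q ^ 4 + 1 ≤ q ^ 9 := by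
    have e1 : q ^ 4 + 1 ≤ q ^ 5 := add_le_pow hq2 4
    have e2 : q ^ 5 ≤ q ^ 8 := Nat.pow_le_pow_right (by omega) (by norm_num)
    have e3 : q ^ 8 * 2 ≤ q ^ 8 * q := Nat.mul_le_mul_left _ hq2
    have e4 : q ^ 9 = q ^ 8 * q := pow_succ q 8
    omega
  refine both (M := 2 + 6 + 9) hp hq h' (by simpa using hp.one_lt.ne') ?_ ?_ (by norm_num)
  · exact ndvd_mul hp (ndvd_mul hp (hs _ (by norm_num)) (hs _ (by norm_num))) h3
  · rw [one_mul]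
    exact mul_lt_pow (mul_lt_pow (sub_lt_pow hq2 _) (sub_le_pow _) (hpos _ (by norm_num))) h4 (by omega)

lemma fam_sz {g : ℕ} (h : g = q ^ 2 * (q - 1) * (q ^ 2 + 1)) : Good p g ∧ Good8 p g := by
  have hq2 := two_le_q hp hq hf
  have hpq := dvd_q hq hf
  have h' : 1 * g = q ^ 2 * ((q - 1) * (q ^ 2 + 1)) := by rw [h]; ring
  have h1 : ¬ p ∣ q - 1 := by
    have := ndvd_sub hp hpq hq2 (k := 1) le_rfl
    rwa [pow_one] at this
  refine both (M := 3) hp hq h' (by simpa using hp.one_lt.ne') ?_ ?_ (by norm_num)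
  · exact ndvd_mul hp h1 (ndvd_add hp hpq (by norm_num))
  · rw [one_mul]
    have := pair_lt hq2 (k := 1) le_rfl
    simpa using this

lemma fam_2g2 {g : ℕ} (h : g = q ^ 3 * (q - 1) * (q ^ 3 + 1)) : Good p g ∧ Good8 p g := by
  have hq2 := two_le_q hp hq hf
  have hpq := dvd_q hq hf
  have h' : 1 * g = q ^ 3 * ((q ^ 1 - 1) * (q ^ 3 + 1)) := by rw [h, pow_one]; ring
  refine both (M := 1 + (3 + 1)) hp hq h' (by simpa using hp.one_lt.ne') ?_ ?_ (by norm_num)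
  · exact ndvd_mul hp (ndvd_sub hp hpq hq2 le_rfl) (ndvd_add hp hpq (by norm_num))
  · rw [one_mul]
    exact mul_lt_pow (sub_lt_pow hq2 _) (add_le_pow hq2 _) (by omega)

lemma fam_2f4 {g : ℕ} (h : g = q ^ 12 * (q - 1) * (q ^ 3 + 1) * (q ^ 4 - 1) * (q ^ 6 + 1)) :
    Good p g ∧ Good8 p g := by
  have hq2 := two_le_q hp hq hf
  have hpq := dvd_q hq hf
  have h' : 1 * g = q ^ 12 * ((q ^ 1 - 1) * (q ^ 3 + 1) * (q ^ 4 - 1) * (q ^ 6 + 1)) := by rw [h, pow_one]; ring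
  refine both (M := 1 + (3 + 1) + 4 + (6 + 1)) hp hq h' (by simpa using hp.one_lt.ne') ?_ ?_ (by norm_num)
  · exact ndvd_mul hp (ndvd_mul hp (ndvd_mul hp (ndvd_sub hp hpq hq2 le_rfl) (ndvd_add hp hpq (by norm_num)))
      (ndvd_sub hp hpq hq2 (by norm_num))) (ndvd_add hp hpq (by norm_num))
  · rw [one_mul]
    exact mul_lt_pow (mul_lt_pow (mul_lt_pow (sub_lt_pow hq2 _) (add_le_pow hq2 _) (by omega))
      (sub_le_pow _) (sub_pos' hq2 (by norm_num))) (add_le_pow hq2 _) (by omega)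

end exc

end Cfsg.Agent.Lib.Helper5.LieOrd
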