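import Mathlib
import Cfsg.Prelude.Def_LieTypeChar
import Cfsg.Agent.Lib.Helper5.LieOrd2
import Cfsg.Agent.S0243
import Cfsg.Agent.S0245
import Cfsg.Agent.S0246
import Cfsg.Agent.S0280
import Cfsg.Agent.S0292
import Cfsg.Agent.S0293
import Cfsg.Agent.S0294
import Cfsg.Agent.S1163
import Cfsg.Agent.S1059
import Cfsg.Agent.S1062
import Cfsg.Agent.S1063
import Cfsg.Agent.S1064
import Cfsg.Agent.S1065
import Cfsg.Agent.S1066
import Cfsg.Agent.S1067
import Cfsg.Agent.S1068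
import Cfsg.Agent.S1069

set_option autoImplicit false

/-! The families, as groups. -/

namespace Cfsg.Agent.Lib.Helper5.LieOrd

open Cfsg

lemma card_field {F : Type*} [Field F] [Fintype F] (p : ℕ) [CharP F p] :
    ∃ f : ℕ, 1 ≤ f ∧ Fintype.card F = p ^ f := by
  obtain ⟨n, _, hn⟩ := FiniteField.card F p
  exact ⟨n, n.pos, hn⟩

/-- `q ^ k = p ^ n` with `k ≥ 1`, `q ≥ 2`: `q` is a power of `p`. -/
lemma root_pow {p q k n : ℕ} (hp : p.Prime) (hk : 1 ≤ k) (h : q ^ k = p ^ n) (hn : 1 ≤ n) :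
    ∃ f : ℕ, 1 ≤ f ∧ q = p ^ f := by
  have h1 : q ∣ p ^ n := by rw [← h]; exact dvd_pow_self q (by omega)
  obtain ⟨f, _, hf⟩ := (Nat.dvd_prime_pow hp).1 h1
  refine ⟨f, ?_, hf⟩
  rcases Nat.eq_zero_or_pos f with h0 | h0
  · exfalso
    rw [h0, pow_zero] at hf
    rw [hf, one_pow] at h
    have : 1 < p ^ n := Nat.one_lt_pow (by omega) hp.one_lt
    omega
  · exact h0

variable {G : Type*} [Group G] {p : ℕ}

lemma psl_case (hp : p.Prime) (h : IsPSLChar p G) :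
    Good p (Nat.card G) ∧ ((¬ ∃ (F : Type) (_ : Field F) (_ : Fintype F),
      Fintype.card F = p ^ (Nat.card G).factorization p ∧
          Nonempty (G ≃* Matrix.ProjectiveSpecialLinearGroup (Fin 2) F)) → Good8 p (Nat.card G)) := by
  obtain ⟨F, _, _, _, n, hn, -, ⟨e⟩⟩ := h
  obtain ⟨f, hf, hF⟩ := card_field (F := F) p
  have h1 := Cfsg.Agent.S0243.result hF n hn
  rw [← Nat.card_congr e.toEquiv] at h1
  obtain ⟨a, b, c⟩ := fam_psl hp rfl hf hn h1
  refine ⟨b, fun hne => ?_⟩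
  rcases Nat.lt_or_ge n 3 with h3 | h3
  · exfalso
    obtain rfl : n = 2 := by omega
    refine hne ⟨F, inferInstance, inferInstance, ?_, ⟨e⟩⟩
    rw [a, hF]
    simp [Finset.sum_range_succ]
  · exact c h3

lemma psp_case (hp : p.Prime) (h : IsPSpChar p G) : Good p (Nat.card G) ∧ Good8 p (Nat.card G) := by
  obtain ⟨F, _, _, _, m, hm, -, ⟨e⟩⟩ := h
  obtain ⟨f, hf, hF⟩ := card_field (F := F) p
  have h1 := Cfsg.Agent.S0245.result hF m
  have h2 := Cfsg.Agent.S0246.result hF m (by omega)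
  have h3 := Subgroup.card_eq_card_quotient_mul_card_subgroup
    (Subgroup.center (Matrix.symplecticGroup (Fin m) F))
  rw [h1, h2, ← Nat.card_congr e.toEquiv] at h3
  have hq2 := two_le_q hp (rfl : p ^ f = p ^ f) hf
  have hpq := dvd_q (rfl : p ^ f = p ^ f) hf
  have hc : ¬ p ∣ Nat.gcd 2 (p ^ f - 1) := by
    have := ndvd_sub hp hpq hq2 (k := 1) le_rfl
    rw [pow_one] at this
    exact ndvd_of_dvd this (Nat.gcd_dvd_right _ _)
  exact fam_psp hp rfl hf hm hc ((mul_comm _ _).trans h3.symm)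

lemma psu_case (hp : p.Prime) (h : IsPSUChar p G) : Good p (Nat.card G) ∧ Good8 p (Nat.card G) := by
  obtain ⟨F, _, _, _, n, q, hq, hn, -, ⟨e⟩⟩ := h
  obtain ⟨f', hf', hF⟩ := card_field (F := F) p
  obtain ⟨f, hf, rfl⟩ := root_pow hp (k := 2) (by norm_num) (hq.symm.trans hF) hf'
  have h1 := Cfsg.Agent.S0280.result hq n (by omega)
  rw [← Nat.card_congr e.toEquiv] at h1
  exact fam_psu hp rfl hf hn h1

lemma odd_case (hp : p.Prime) (h : IsPOmegaOddChar p G) : Good p (Nat.card G) ∧ Good8 p (Nat.card G) := by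
  obtain ⟨F, _, _, _, m, hm, hodd, ⟨e⟩⟩ := h
  obtain ⟨f, hf, hF⟩ := card_field (F := F) p
  have h1 := Cfsg.Agent.S0292.result hF (hF ▸ hodd) m hm
  rw [← Nat.card_congr e.toEquiv] at h1
  have hc : ¬ p ∣ 2 := by
    intro hd
    have : p = 2 := (Nat.prime_dvd_prime_iff_eq hp Nat.prime_two).1 hd
    subst this
    rw [hF] at hodd
    exact (Nat.not_even_iff_odd.2 hodd) ((Nat.even_pow.2 ⟨even_two, by omega⟩))
  exact fam_psp hp rfl hf (by omega) hc h1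

lemma plus_case (hp : p.Prime) (h : IsPOmegaPlusChar p G) : Good p (Nat.card G) ∧ Good8 p (Nat.card G) := by
  obtain ⟨F, _, _, _, m, hm, ⟨e⟩⟩ := h
  obtain ⟨f, hf, hF⟩ := card_field (F := F) p
  have h1 := Cfsg.Agent.S0293.result hF m hm
  rw [← Nat.card_congr e.toEquiv] at h1
  exact fam_plus hp rfl hf hm h1

lemma minus_case (hp : p.Prime) (h : IsPOmegaMinusChar p G) : Good p (Nat.card G) ∧ Good8 p (Nat.card G) := by
  obtain ⟨F, _, _, _, m, a, b, hm, hab, ⟨e⟩⟩ := h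
  obtain ⟨f, hf, hF⟩ := card_field (F := F) p
  have h1 := Cfsg.Agent.S0294.result hF m hm a b hab
  rw [← Nat.card_congr e.toEquiv] at h1
  exact fam_minus hp rfl hf hm h1

lemma exc_case (hp : p.Prime) (h : IsExceptionalChevChar p G) : Good p (Nat.card G) ∧ Good8 p (Nat.card G) := by
  obtain ⟨F, _, _, _, h⟩ := h
  obtain ⟨f, hf, hF⟩ := card_field (F := F) p
  have hq2 := two_le_q hp (rfl : p ^ f = p ^ f) hf
  have hpq := dvd_q (rfl : p ^ f = p ^ f) hf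
  have hc : ∀ k, ¬ p ∣ Nat.gcd k (p ^ f - 1) := by
    intro k
    have := ndvd_sub hp hpq hq2 (k := 1) le_rfl
    rw [pow_one] at this
    exact ndvd_of_dvd this (Nat.gcd_dvd_right _ _)
  rcases h with ⟨-, ⟨e⟩⟩ | ⟨⟨e⟩⟩ | ⟨⟨e⟩⟩ | ⟨⟨e⟩⟩ | ⟨⟨e⟩⟩
  · have h1 := Cfsg.Agent.S1059.result hF
    rw [← Nat.card_congr e.toEquiv] at h1
    exact fam_g2 hp rfl hf h1
  · have h1 := Cfsg.Agent.S1062.result hF
    rw [← Nat.card_congr e.toEquiv] at h1
    exact fam_f4 hp rfl hf h1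
  · have h1 := Cfsg.Agent.S1063.result hF
    rw [← Nat.card_congr e.toEquiv] at h1
    exact fam_e6 hp rfl hf (hc 3) h1
  · have h1 := Cfsg.Agent.S1064.result hF
    rw [← Nat.card_congr e.toEquiv] at h1
    exact fam_e7 hp rfl hf (hc 2) h1
  · have h1 := Cfsg.Agent.S1065.result hF
    rw [← Nat.card_congr e.toEquiv] at h1
    exact fam_e8 hp rfl hf h1

lemma tw_case (hp : p.Prime) (h : IsTwistedE6D4Char p G) : Good p (Nat.card G) ∧ Good8 p (Nat.card G) := by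
  obtain ⟨K, _, _, _, q, hq, h⟩ := h
  obtain ⟨f', hf', hF⟩ := card_field (F := K) p
  rcases h with ⟨hK, ⟨e⟩⟩ | ⟨hK, ⟨e⟩⟩
  · obtain ⟨f, hf, rfl⟩ := root_pow hp (k := 2) (by norm_num) (hK.symm.trans hF) hf'
    have h1 := Cfsg.Agent.S1066.result hq hK
    rw [← Nat.card_congr e.toEquiv] at h1
    have hpq := dvd_q (rfl : p ^ f = p ^ f) hf
    have hc : ¬ p ∣ Nat.gcd 3 (p ^ f + 1) := by
      have := ndvd_add hp hpq (k := 1) le_rfl
      rw [pow_one] at this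
      exact ndvd_of_dvd this (Nat.gcd_dvd_right _ _)
    exact fam_2e6 hp rfl hf hc h1
  · obtain ⟨f, hf, rfl⟩ := root_pow hp (k := 3) (by norm_num) (hK.symm.trans hF) hf'
    have h1 := Cfsg.Agent.S1067.result hq hK
    rw [← Nat.card_congr e.toEquiv] at h1
    exact fam_3d4 hp rfl hf h1

lemma sz_case (h : Lie.IsoSuzuki G) : Good 2 (Nat.card G) ∧ Good8 2 (Nat.card G) := by
  obtain ⟨F, _, _, m, hm, hF, ⟨e⟩⟩ := h
  have h1 := (Cfsg.Agent.S1163.result hm hF).1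
  rw [← Nat.card_congr e.toEquiv] at h1
  exact fam_sz Nat.prime_two (rfl : 2 ^ (2 * m + 1) = 2 ^ (2 * m + 1)) (by omega) h1

lemma f4_case (h : Lie.Iso2F4 G) : Good 2 (Nat.card G) ∧ Good8 2 (Nat.card G) := by
  obtain ⟨F, _, _, m, hm, hF, ⟨e⟩⟩ := h
  have h1 := Cfsg.Agent.S1068.result hF
  rw [← Nat.card_congr e.toEquiv] at h1
  exact fam_2f4 Nat.prime_two (rfl : 2 ^ (2 * m + 1) = 2 ^ (2 * m + 1)) (by omega) h1

lemma ree_case (h : Lie.IsoRee G) : Good 3 (Nat.card G) ∧ Good8 3 (Nat.card G) := by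
  obtain ⟨F, _, _, m, hm, hF, ⟨e⟩⟩ := h
  have h1 := Cfsg.Agent.S1069.result hF
  rw [← Nat.card_congr e.toEquiv] at h1
  exact fam_2g2 Nat.prime_three (rfl : 3 ^ (2 * m + 1) = 3 ^ (2 * m + 1)) (by omega) h1

end Cfsg.Agent.Lib.Helper5.LieOrd
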