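import Mathlib
import Cfsg.Agent.Lib.Helper5.OmegaSimple
import Cfsg.Agent.Lib.Helper5.OmegaCenter

set_option autoImplicit false

/-! # Automorphisms of `PΩ(Q)`, part 1: calculus relative to a hyperbolic pair -/

namespace Cfsg.Agent.Lib.Helper5

open QuadraticMap Module Cfsg.Agent.Lib.Helper44

variable {F V : Type*} [Field F] [AddCommGroup V] [Module F V]

/-- The class of an element of `Ω` in `PΩ`. -/
def omk {Q : QuadraticForm F V} (g : OmQ Q) : OmQ Q ⧸ Subgroup.center (OmQ Q) := QuotientGroup.mk g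

section basic

variable {Q : QuadraticForm F V}

lemma omk_mul (g h : OmQ Q) : omk (g * h) = omk g * omk h := rfl
lemma omk_inv (g : OmQ Q) : omk g⁻¹ = (omk g)⁻¹ := rfl
lemma omk_one : omk (1 : OmQ Q) = 1 := rfl
lemma omk_pow (g : OmQ Q) (m : ℕ) : omk (g ^ m) = omk g ^ m := rfl
lemma omk_surj (x : OmQ Q ⧸ Subgroup.center (OmQ Q)) : ∃ g : OmQ Q, omk g = x :=
  QuotientGroup.mk_surjective x

lemma OmQ.lin_inv_lin (g : OmQ Q) (x : V) : g⁻¹.lin (g.lin x) = x := by
  rw [← OmQ.lin_mul, inv_mul_cancel, OmQ.lin_one]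

lemma OmQ.lin_lin_inv (g : OmQ Q) (x : V) : g.lin (g⁻¹.lin x) = x := by
  rw [← OmQ.lin_mul, mul_inv_cancel, OmQ.lin_one]

lemma OmQ.polar_inv_lin (g : OmQ Q) (x y : V) : polar Q (g⁻¹.lin x) y = polar Q x (g.lin y) := by
  rw [← g.polar_lin, OmQ.lin_lin_inv]

end basic

/-- A hyperbolic pair. -/
structure OPair (Q : QuadraticForm F V) where
  u : V
  v : V
  hu : Q u = 0
  hv : Q v = 0
  huv : polar Q u v = 1

namespace OPair

variable {Q : QuadraticForm F V} (P : OPair Q)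

lemma hvu : polar Q P.v P.u = 1 := by rw [polar_comm]; exact P.huv

/-- The pair with the two vectors exchanged. -/
def swap : OPair Q := ⟨P.v, P.u, P.hv, P.hu, P.hvu⟩

@[simp] lemma swap_u : P.swap.u = P.v := rfl
@[simp] lemma swap_v : P.swap.v = P.u := rfl

lemma huu : polar Q P.u P.u = 0 := by rw [polar_self, P.hu]; simp
lemma hvv : polar Q P.v P.v = 0 := by rw [polar_self, P.hv]; simp

lemma u_ne : P.u ≠ 0 := by
  intro h
  have := P.huv
  rw [h] at this
  simp at this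

lemma v_ne : P.v ≠ 0 := P.swap.u_ne

/-- Membership in `W = {u,v}^⊥`. -/
def InW (w : V) : Prop := polar Q P.u w = 0 ∧ polar Q P.v w = 0

lemma inW_zero : P.InW 0 := ⟨by simp, by simp⟩

variable {P}

lemma InW.swap {w : V} (h : P.InW w) : P.swap.InW w := ⟨h.2, h.1⟩

lemma InW.unswap {w : V} (h : P.swap.InW w) : P.InW w := ⟨h.2, h.1⟩

lemma InW.add {w w' : V} (h : P.InW w) (h' : P.InW w') : P.InW (w + w') :=
  ⟨by rw [polar_add_right, h.1, h'.1, add_zero], by rw [polar_add_right, h.2, h'.2, add_zero]⟩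

lemma InW.smul {w : V} (h : P.InW w) (c : F) : P.InW (c • w) :=
  ⟨by rw [polar_smul_right, h.1, smul_zero], by rw [polar_smul_right, h.2, smul_zero]⟩

lemma InW.neg {w : V} (h : P.InW w) : P.InW (-w) :=
  ⟨by rw [polar_neg_right, h.1, neg_zero], by rw [polar_neg_right, h.2, neg_zero]⟩

lemma InW.sub {w w' : V} (h : P.InW w) (h' : P.InW w') : P.InW (w - w') :=
  ⟨by rw [polar_sub_right, h.1, h'.1, sub_zero], by rw [polar_sub_right, h.2, h'.2, sub_zero]⟩

lemma InW.u_right {w : V} (h : P.InW w) : polar Q w P.u = 0 := by rw [polar_comm]; exact h.1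

lemma InW.v_right {w : V} (h : P.InW w) : polar Q w P.v = 0 := by rw [polar_comm]; exact h.2

variable (P)

/-- The projection to `W`. -/
def pW (x : V) : V := x - polar Q P.v x • P.u - polar Q P.u x • P.v

lemma inW_pW (x : V) : P.InW (P.pW x) := by
  constructor
  · rw [pW, polar_sub_right, polar_sub_right, polar_smul_right, polar_smul_right, P.huu, P.huv]
    simp
  · rw [pW, polar_sub_right, polar_sub_right, polar_smul_right, polar_smul_right, P.hvv, P.hvu]
    simp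

lemma pW_of_inW {w : V} (h : P.InW w) : P.pW w = w := by
  rw [pW, h.1, h.2]; simp

lemma decomp (x : V) : x = polar Q P.v x • P.u + polar Q P.u x • P.v + P.pW x := by
  rw [pW]; abel

lemma pW_add (x y : V) : P.pW (x + y) = P.pW x + P.pW y := by
  simp only [pW, polar_add_right]; module

lemma pW_smul (c : F) (x : V) : P.pW (c • x) = c • P.pW x := by
  simp only [pW, polar_smul_right, smul_eq_mul]; module

lemma pW_u : P.pW P.u = 0 := by rw [pW, P.huu, P.hvu]; simp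

lemma pW_v : P.pW P.v = 0 := by rw [pW, P.hvv, P.huv]; simp

lemma pW_swap (x : V) : P.swap.pW x = P.pW x := by
  simp only [pW, swap_u, swap_v]; abel

lemma comp_ext {α β α' β' : F} {w w' : V} (hw : P.InW w) (hw' : P.InW w')
    (h : α • P.u + β • P.v + w = α' • P.u + β' • P.v + w') : α = α' ∧ β = β' ∧ w = w' := by
  have h1 := congrArg (fun x => polar Q P.v x) h
  have h2 := congrArg (fun x => polar Q P.u x) h
  simp only [polar_add_right, polar_smul_right, P.huu, P.hvv, P.huv, P.hvu, hw.1, hw.2, hw'.1,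
    hw'.2, smul_eq_mul, mul_one, mul_zero, add_zero, zero_add] at h1 h2
  subst h1 h2
  exact ⟨rfl, rfl, add_left_cancel h⟩

lemma Q_comp (α β : F) {w : V} (hw : P.InW w) : Q (α • P.u + β • P.v + w) = α * β + Q w := by
  rw [QuadraticMap.map_add (⇑Q), QuadraticMap.map_add (⇑Q), QuadraticMap.map_smul,
    QuadraticMap.map_smul, P.hu, P.hv, polar_add_left, polar_smul_left, polar_smul_left,
    polar_smul_left, polar_smul_right, hw.1, hw.2, P.huv]
  simp only [smul_eq_mul]; ring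

lemma polar_comp (α β α' β' : F) {w w' : V} (hw : P.InW w) (hw' : P.InW w') :
    polar Q (α • P.u + β • P.v + w) (α' • P.u + β' • P.v + w')
      = α * β' + β * α' + polar Q w w' := by
  simp only [polar_add_left, polar_add_right, polar_smul_left, polar_smul_right, P.huu, P.hvv,
    P.huv, P.hvu, hw.u_right, hw.v_right, hw'.1, hw'.2, smul_eq_mul]
  ring

end OPair

section eich

variable [Fintype F] [FiniteDimensional F V] {Q : QuadraticForm F V}
  (hQ : (polarBilin Q).Nondegenerate) (hn : 5 ≤ finrank F V)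

lemma eichOm_congr {u u' v v' : V} (h1 : u = u') (h2 : v = v') (hu : Q u = 0)
    (huv : polar Q u v = 0) :
    eichOm hQ hn u v hu huv = eichOm hQ hn u' v' (h1 ▸ hu) (by subst h1 h2; exact huv) := by
  subst h1 h2; rfl

lemma eichOm_conj (g : OmQ Q) (u v : V) (hu : Q u = 0) (huv : polar Q u v = 0) :
    g * eichOm hQ hn u v hu huv * g⁻¹
      = eichOm hQ hn (g.lin u) (g.lin v) (by rw [g.Q_lin, hu]) (by rw [g.polar_lin, huv]) := by
  apply OmQ.ext
  intro x
  rw [OmQ.lin_mul, OmQ.lin_mul, eichOm_lin, eichOm_lin]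
  have h1 : ∀ y, polar Q y (g⁻¹.lin x) = polar Q (g.lin y) x := by
    intro y
    rw [← g.polar_lin, OmQ.lin_lin_inv]
  simp only [map_add, map_sub, map_smul, h1, OmQ.lin_lin_inv, g.Q_lin]

lemma eichOm_smul_left (u v : V) (a : F) (hu : Q u = 0) (huv : polar Q u v = 0) :
    eichOm hQ hn (a • u) v (by rw [QuadraticMap.map_smul, hu, smul_zero])
      (by rw [polar_smul_left, huv, smul_zero])
      = eichOm hQ hn u (a • v) hu (by rw [polar_smul_right, huv, smul_zero]) := by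
  apply OmQ.ext
  intro x
  rw [eichOm_lin, eichOm_lin]
  simp only [polar_smul_left, QuadraticMap.map_smul, smul_eq_mul]
  module

lemma eichOm_add_smul (u v : V) (a : F) (hu : Q u = 0) (huv : polar Q u v = 0) :
    eichOm hQ hn u (v + a • u) hu (by
      rw [polar_add_right, polar_smul_right, huv, polar_self, hu]; simp)
      = eichOm hQ hn u v hu huv := by
  apply OmQ.ext
  intro x
  rw [eichOm_lin, eichOm_lin, Q_add_smul, hu, polar_comm Q v u, huv]
  simp only [polar_add_left, polar_smul_left, smul_eq_mul]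
  module

lemma eichOm_add (u v v' : V) (hu : Q u = 0) (huv : polar Q u v = 0) (huv' : polar Q u v' = 0) :
    eichOm hQ hn u (v + v') hu (by rw [polar_add_right, huv, huv', add_zero])
      = eichOm hQ hn u v hu huv * eichOm hQ hn u v' hu huv' :=
  Subtype.ext (eichlerO_add Q hu huv huv')

lemma eichOm_zero (u : V) (hu : Q u = 0) : eichOm hQ hn u 0 hu (by simp) = 1 :=
  Subtype.ext (eichlerO_zero_right Q u hu)

lemma eichOm_inv (u v : V) (hu : Q u = 0) (huv : polar Q u v = 0) :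
    (eichOm hQ hn u v hu huv)⁻¹ = eichOm hQ hn u (-v) hu (by rw [polar_neg_right, huv, neg_zero]) :=
  Subtype.ext (eichlerO_inv Q u v hu huv)

end eich

namespace OPair

variable [Fintype F] [FiniteDimensional F V] {Q : QuadraticForm F V} (P : OPair Q)
  (hQ : (polarBilin Q).Nondegenerate) (hn : 5 ≤ finrank F V)

omit [Fintype F] in
include hQ hn in
lemma exists_nonsingular_inW : ∃ w, P.InW w ∧ Q w ≠ 0 := by
  have h3 := le_finrank_perp2 Q P.u P.v
  obtain ⟨w, hw, hwq⟩ := exists_nonsingular_of_finrank hQ (perp2 Q P.u P.v) (by omega)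
  exact ⟨w, mem_perp2.1 hw, hwq⟩

omit [Fintype F] in
include P hQ hn in
lemma exists_smul_of_omk_eq {g g' : OmQ Q} (h : omk g = omk g') :
    ∃ ζ : F, ∀ x, g'.lin x = ζ • g.lin x := by
  rw [omk, omk, QuotientGroup.eq, Subgroup.mem_center_iff] at h
  obtain ⟨w0, hw0, hw0q⟩ := P.exists_nonsingular_inW hQ hn
  obtain ⟨α, -, hα⟩ := scalar_of_commute hQ P.hu P.hv P.huv hw0q hw0.1 hw0.2 (g⁻¹ * g').1.1
    (g⁻¹ * g').1.2 (by
      intro k hk
      have := h ⟨k, hk⟩
      exact (congrArg (fun a : OmQ Q => a.1.1) this).symm)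
  refine ⟨α, fun x => ?_⟩
  have h1 : (g⁻¹ * g').lin x = α • x := hα x
  have h2 : g.lin ((g⁻¹ * g').lin x) = g'.lin x := by
    rw [← OmQ.lin_mul, mul_inv_cancel_left]
  rw [← h2, h1, map_smul]

/-- The elements of the unipotent radical `Q_u`, parametrised by `W`. -/
def Eu (w : V) (hw : P.InW w) : OmQ Q := eichOm hQ hn P.u w P.hu hw.1

lemma Eu_lin (w : V) (hw : P.InW w) (x : V) :
    (P.Eu hQ hn w hw).lin x
      = x + polar Q w x • P.u - polar Q P.u x • w - (Q w * polar Q P.u x) • P.u :=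
  eichOm_lin hQ hn _ _ _ _ x

lemma Eu_congr {w w' : V} (h : w = w') (hw : P.InW w) :
    P.Eu hQ hn w hw = P.Eu hQ hn w' (h ▸ hw) := by subst h; rfl

lemma Eu_u (w : V) (hw : P.InW w) : (P.Eu hQ hn w hw).lin P.u = P.u := by
  rw [Eu_lin, P.huu, hw.u_right]; simp

lemma Eu_v (w : V) (hw : P.InW w) : (P.Eu hQ hn w hw).lin P.v = P.v - w - Q w • P.u := by
  rw [Eu_lin, P.huv, hw.v_right]; simp

lemma Eu_inW (w : V) (hw : P.InW w) {x : V} (hx : P.InW x) :
    (P.Eu hQ hn w hw).lin x = x + polar Q w x • P.u := by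
  rw [Eu_lin, hx.1]; simp

lemma Eu_add (w w' : V) (hw : P.InW w) (hw' : P.InW w') :
    P.Eu hQ hn (w + w') (hw.add hw') = P.Eu hQ hn w hw * P.Eu hQ hn w' hw' :=
  eichOm_add hQ hn _ _ _ _ _ _

lemma Eu_zero : P.Eu hQ hn 0 P.inW_zero = 1 := eichOm_zero hQ hn _ _

lemma Eu_inv (w : V) (hw : P.InW w) : (P.Eu hQ hn w hw)⁻¹ = P.Eu hQ hn (-w) hw.neg :=
  eichOm_inv hQ hn _ _ _ _

/-- Uniqueness of the parameter, even modulo the centre. -/
lemma Eu_inj {w w' : V} (hw : P.InW w) (hw' : P.InW w')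
    (h : omk (P.Eu hQ hn w hw) = omk (P.Eu hQ hn w' hw')) : w = w' := by
  obtain ⟨ζ, hζ⟩ := P.exists_smul_of_omk_eq hQ hn h
  have h1 := hζ P.u
  rw [Eu_u, Eu_u] at h1
  have hζ1 : ζ = 1 := by
    have := congrArg (fun x => polar Q x P.v) h1
    simp only [polar_smul_left, P.huv, smul_eq_mul, mul_one] at this
    exact this.symm
  have h2 := hζ P.v
  rw [Eu_v, Eu_v, hζ1, one_smul] at h2
  have h3 : (-Q w') • P.u + (1 : F) • P.v + (-w') = (-Q w) • P.u + (1 : F) • P.v + (-w) := by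
    rw [one_smul, neg_smul, neg_smul]
    have e : ∀ (a b c : V), -a + b + -c = b - c - a := by intro a b c; abel
    rw [e, e, h2]
  obtain ⟨-, -, e3⟩ := P.comp_ext hw'.neg hw.neg h3
  exact (neg_injective e3).symm

/-- Every Eichler transformation with centre `u` is some `Eu w`. -/
lemma eichOm_eq_Eu (z : V) (hz : polar Q P.u z = 0) :
    eichOm hQ hn P.u z P.hu hz = P.Eu hQ hn (P.pW z) (P.inW_pW z) := by
  have e : z = P.pW z + polar Q P.v z • P.u := by
    conv_lhs => rw [P.decomp z, hz]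
    module
  rw [Eu, ← eichOm_add_smul hQ hn P.u (P.pW z) (polar Q P.v z) P.hu (P.inW_pW z).1]
  exact eichOm_congr hQ hn rfl e _ _

/-- `k` fixes the points `u`, `v`, with eigenvalue `l` on `u`. -/
def Tor (k : OmQ Q) (l : F) : Prop := l ≠ 0 ∧ k.lin P.u = l • P.u ∧ k.lin P.v = l⁻¹ • P.v

omit [Fintype F] [FiniteDimensional F V] in
lemma tor_of_fix {k : OmQ Q} {l l' : F} (h1 : k.lin P.u = l • P.u) (h2 : k.lin P.v = l' • P.v) :
    P.Tor k l := by
  have h3 : polar Q (k.lin P.u) (k.lin P.v) = 1 := by rw [k.polar_lin, P.huv]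
  rw [h1, h2, polar_smul_left, polar_smul_right, P.huv] at h3
  simp only [smul_eq_mul, mul_one] at h3
  have hl : l ≠ 0 := by rintro rfl; simp at h3
  refine ⟨hl, h1, ?_⟩
  rw [h2]
  congr 1
  field_simp
  linear_combination h3

variable {P}

omit [Fintype F] [FiniteDimensional F V] in
lemma Tor.swap {k : OmQ Q} {l : F} (hk : P.Tor k l) : P.swap.Tor k l⁻¹ :=
  ⟨inv_ne_zero hk.1, hk.2.2, by rw [inv_inv]; exact hk.2.1⟩

omit [Fintype F] [FiniteDimensional F V] in
lemma Tor.inW {k : OmQ Q} {l : F} (hk : P.Tor k l) {w : V} (hw : P.InW w) : P.InW (k.lin w) := by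
  obtain ⟨hl, h1, h2⟩ := hk
  constructor
  · have : polar Q (k.lin P.u) (k.lin w) = 0 := by rw [k.polar_lin, hw.1]
    rw [h1, polar_smul_left, smul_eq_mul] at this
    exact (mul_eq_zero.1 this).resolve_left hl
  · have : polar Q (k.lin P.v) (k.lin w) = 0 := by rw [k.polar_lin, hw.2]
    rw [h2, polar_smul_left, smul_eq_mul] at this
    exact (mul_eq_zero.1 this).resolve_left (inv_ne_zero hl)

lemma Tor.conj_Eu {k : OmQ Q} {l : F} (hk : P.Tor k l) (w : V) (hw : P.InW w) :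
    k * P.Eu hQ hn w hw * k⁻¹ = P.Eu hQ hn (l • k.lin w) ((hk.inW hw).smul l) := by
  rw [Eu, eichOm_conj, Eu, ← eichOm_smul_left hQ hn P.u (k.lin w) l P.hu (hk.inW hw).1]
  exact eichOm_congr hQ hn hk.2.1 rfl _ _

omit [Fintype F] [FiniteDimensional F V] in
lemma Tor.mul {k k' : OmQ Q} {l l' : F} (hk : P.Tor k l) (hk' : P.Tor k' l') :
    P.Tor (k * k') (l * l') := by
  refine ⟨mul_ne_zero hk.1 hk'.1, ?_, ?_⟩
  · rw [OmQ.lin_mul, hk'.2.1, map_smul, hk.2.1, smul_smul, mul_comm]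
  · rw [OmQ.lin_mul, hk'.2.2, map_smul, hk.2.2, smul_smul, _root_.mul_inv_rev]

omit [Fintype F] [FiniteDimensional F V] in
lemma Tor.inv {k : OmQ Q} {l : F} (hk : P.Tor k l) : P.Tor k⁻¹ l⁻¹ := by
  refine ⟨inv_ne_zero hk.1, ?_, ?_⟩
  · have := congrArg (fun x => k⁻¹.lin x) hk.2.1
    simp only [OmQ.lin_inv_lin, map_smul] at this
    nth_rewrite 2 [this]
    rw [smul_smul, inv_mul_cancel₀ hk.1, one_smul]
  · have := congrArg (fun x => k⁻¹.lin x) hk.2.2
    simp only [OmQ.lin_inv_lin, map_smul] at this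
    rw [inv_inv]
    nth_rewrite 2 [this]
    rw [smul_smul, mul_inv_cancel₀ hk.1, one_smul]

variable (P)

/-- Eichler transformations inside `W` lie in the Levi factor. -/
lemma eich_Tor {y z : V} (hy : P.InW y) (hz : P.InW z) (hyq : Q y = 0) (hyz : polar Q y z = 0) :
    P.Tor (eichOm hQ hn y z hyq hyz) 1 := by
  refine ⟨one_ne_zero, ?_, ?_⟩
  · rw [eichOm_lin, hy.u_right, hz.u_right]; simp
  · rw [eichOm_lin, hy.v_right, hz.v_right]; simp

/-- The element `n(w)` exchanging the points `u`, `v` and inducing the reflection in `w` on `W`. -/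
def nW (w : V) (hw : P.InW w) : OmQ Q :=
  P.swap.Eu hQ hn ((Q w)⁻¹ • w) (hw.smul _).swap * P.Eu hQ hn w hw *
    P.swap.Eu hQ hn ((Q w)⁻¹ • w) (hw.smul _).swap

lemma nW_v (w : V) (hw : P.InW w) (hq : Q w ≠ 0) : (P.nW hQ hn w hw).lin P.v = (-Q w) • P.u := by
  have hww : polar Q w w = 2 * Q w := by rw [polar_self]; simp
  rw [nW, OmQ.lin_mul, OmQ.lin_mul]
  have e1 : (P.swap.Eu hQ hn ((Q w)⁻¹ • w) (hw.smul _).swap).lin P.v = P.v := P.swap.Eu_u hQ hn _ _
  rw [e1, Eu_v, map_sub, map_sub, map_smul, e1, P.swap.Eu_inW hQ hn _ _ hw.swap]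
  have e2 : (P.swap.Eu hQ hn ((Q w)⁻¹ • w) (hw.smul _).swap).lin P.u
      = P.u - (Q w)⁻¹ • w - Q ((Q w)⁻¹ • w) • P.v := P.swap.Eu_v hQ hn _ _
  rw [e2, QuadraticMap.map_smul, polar_smul_left, hww, swap_u]
  simp only [smul_eq_mul]
  have h3 : (Q w)⁻¹ * (2 * Q w) = 2 := by field_simp
  have h4 : (Q w)⁻¹ * (Q w)⁻¹ * Q w = (Q w)⁻¹ := by field_simp
  rw [h3, h4, smul_sub, smul_sub, smul_smul, smul_smul, mul_inv_cancel₀ hq]
  module

lemma nW_u (w : V) (hw : P.InW w) (hq : Q w ≠ 0) :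
    (P.nW hQ hn w hw).lin P.u = (-(Q w)⁻¹) • P.v := by
  have hww : polar Q w w = 2 * Q w := by rw [polar_self]; simp
  rw [nW, OmQ.lin_mul, OmQ.lin_mul]
  have e1 : (P.swap.Eu hQ hn ((Q w)⁻¹ • w) (hw.smul _).swap).lin P.v = P.v := P.swap.Eu_u hQ hn _ _
  have e2 : (P.swap.Eu hQ hn ((Q w)⁻¹ • w) (hw.smul _).swap).lin P.u
      = P.u - (Q w)⁻¹ • w - Q ((Q w)⁻¹ • w) • P.v := P.swap.Eu_v hQ hn _ _
  have h4 : (Q w)⁻¹ * (Q w)⁻¹ * Q w = (Q w)⁻¹ := by field_simp
  have e0 : (P.Eu hQ hn w hw).lin (P.u - (Q w)⁻¹ • w - (Q w)⁻¹ • P.v)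
      = P.u - (Q w)⁻¹ • (w + (2 * Q w) • P.u) - (Q w)⁻¹ • (P.v - w - Q w • P.u) := by
    rw [map_sub, map_sub, map_smul, map_smul, Eu_u, Eu_v, P.Eu_inW hQ hn _ _ hw, hww]
  rw [e2, QuadraticMap.map_smul, smul_eq_mul, h4, e0]
  have e3 : P.u - (Q w)⁻¹ • (w + (2 * Q w) • P.u) - (Q w)⁻¹ • (P.v - w - Q w • P.u)
      = (1 - (Q w)⁻¹ * Q w) • P.u + (-(Q w)⁻¹) • P.v := by module
  rw [e3, inv_mul_cancel₀ hq, sub_self, zero_smul, zero_add, map_smul, e1]

lemma nW_inW (w : V) (hw : P.InW w) (hq : Q w ≠ 0) {x : V} (hx : P.InW x) :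
    (P.nW hQ hn w hw).lin x = x - ((Q w)⁻¹ * polar Q w x) • w := by
  have hww : polar Q w w = 2 * Q w := by rw [polar_self]; simp
  rw [nW, OmQ.lin_mul, OmQ.lin_mul]
  have e1 : (P.swap.Eu hQ hn ((Q w)⁻¹ • w) (hw.smul _).swap).lin P.v = P.v := P.swap.Eu_u hQ hn _ _
  rw [P.swap.Eu_inW hQ hn _ _ hx.swap, swap_u, map_add, map_smul, Eu_v, P.Eu_inW hQ hn _ _ hx,
    polar_smul_left, smul_eq_mul]
  have e3 : x + polar Q w x • P.u + ((Q w)⁻¹ * polar Q w x) • (P.v - w - Q w • P.u)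
      = x + (polar Q w x * (1 - (Q w)⁻¹ * Q w)) • P.u + ((Q w)⁻¹ * polar Q w x) • P.v
        - ((Q w)⁻¹ * polar Q w x) • w := by module
  rw [e3, inv_mul_cancel₀ hq, sub_self, mul_zero, zero_smul, add_zero, map_sub, map_add, map_smul,
    map_smul, e1, P.swap.Eu_inW hQ hn _ _ hx.swap, P.swap.Eu_inW hQ hn _ _ hw.swap, swap_u,
    polar_smul_left, polar_smul_left, hww]
  simp only [smul_eq_mul]
  have h3 : (Q w)⁻¹ * (2 * Q w) = 2 := by field_simp
  rw [h3]
  module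

/-- The torus element with eigenvalue `t²` acting trivially on `W`. -/
def hT (w : V) (hw : P.InW w) (t : F) : OmQ Q :=
  P.nW hQ hn (t • w) (hw.smul t) * P.nW hQ hn w hw

lemma hT_Tor (w : V) (hw : P.InW w) (hq : Q w ≠ 0) {t : F} (ht : t ≠ 0) :
    P.Tor (P.hT hQ hn w hw t) (t ^ 2) := by
  have hq' : Q (t • w) ≠ 0 := by
    rw [QuadraticMap.map_smul, smul_eq_mul]; exact mul_ne_zero (mul_ne_zero ht ht) hq
  apply P.tor_of_fix (l' := (t ^ 2)⁻¹)
  · rw [hT, OmQ.lin_mul, nW_u _ _ _ _ _ hq, map_smul, nW_v _ _ _ _ _ hq', smul_smul,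
      QuadraticMap.map_smul, smul_eq_mul]
    congr 1
    field_simp
  · rw [hT, OmQ.lin_mul, nW_v _ _ _ _ _ hq, map_smul, nW_u _ _ _ _ _ hq', smul_smul,
      QuadraticMap.map_smul, smul_eq_mul]
    congr 1
    field_simp

lemma hT_inW (w : V) (hw : P.InW w) (hq : Q w ≠ 0) {t : F} (ht : t ≠ 0) {x : V} (hx : P.InW x) :
    (P.hT hQ hn w hw t).lin x = x := by
  have hq' : Q (t • w) ≠ 0 := by
    rw [QuadraticMap.map_smul, smul_eq_mul]; exact mul_ne_zero (mul_ne_zero ht ht) hq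
  have hww : polar Q w w = 2 * Q w := by rw [polar_self]; simp
  rw [hT, OmQ.lin_mul, nW_inW _ _ _ _ _ hq hx, nW_inW _ _ _ _ _ hq' (hx.sub (hw.smul _)),
    QuadraticMap.map_smul, polar_smul_left, polar_sub_right, polar_smul_right, hww]
  simp only [smul_eq_mul]
  have : ((t * t * Q w)⁻¹ * (t * (polar Q w x - (Q w)⁻¹ * polar Q w x * (2 * Q w)))) * t
      = - ((Q w)⁻¹ * polar Q w x) := by
    field_simp
    ring
  rw [smul_smul, this]
  module

end OPair

end Cfsg.Agent.Lib.Helper5
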