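import Mathlib
import Cfsg.Agent.Lib.Helper5.OAut1

set_option autoImplicit false

/-! # Automorphisms of `PΩ(Q)`, part 2: centres of Eichler transformations, the commutant of the
Levi factor on `W` -/

namespace Cfsg.Agent.Lib.Helper5

open QuadraticMap Module Cfsg.Agent.Lib.Helper44

variable {F V : Type*} [Field F] [AddCommGroup V] [Module F V]

namespace OPair

variable [Fintype F] [FiniteDimensional F V] {Q : QuadraticForm F V} (P : OPair Q)
  (hQ : (polarBilin Q).Nondegenerate) (hn : 5 ≤ finrank F V)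

/-- An Eichler transformation `E_a(b)` with `b` non-singular which lies in `Q_u` modulo the centre
has its centre `a` on the point `u`. -/
lemma center_of_omk_eq {a b c : V} (ha : Q a = 0) (hab : polar Q a b = 0) (hb : Q b ≠ 0)
    (hc : P.InW c) (h : omk (eichOm hQ hn a b ha hab) = omk (P.Eu hQ hn c hc)) :
    ∃ l : F, a = l • P.u := by
  by_cases ha0 : a = 0
  · exact ⟨0, by rw [ha0, zero_smul]⟩
  obtain ⟨ζ, hζ⟩ := P.exists_smul_of_omk_eq hQ hn h
  have haa : polar Q a a = 0 := by rw [polar_self, ha]; simp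
  have hba : polar Q b a = 0 := by rw [polar_comm]; exact hab
  -- first `ζ = 1`
  by_cases hζ1 : ζ = 1
  swap
  · have h1 := hζ a
    rw [Eu_lin, eichOm_lin, haa, hba] at h1
    simp only [zero_smul, mul_zero, add_zero, sub_zero] at h1
    have h2 := congrArg (fun x => polar Q P.u x) h1
    simp only [polar_add_right, polar_sub_right, polar_smul_right, P.huu, hc.1, smul_eq_mul,
      mul_zero, add_zero, sub_zero] at h2
    have h3 : polar Q P.u a = 0 := by
      have : (1 - ζ) * polar Q P.u a = 0 := by linear_combination h2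
      exact (mul_eq_zero.1 this).resolve_left (sub_ne_zero.2 (Ne.symm hζ1))
    rw [h3] at h1
    simp only [zero_smul, mul_zero, sub_zero] at h1
    have h4 : (ζ - 1) • a = polar Q c a • P.u := by
      rw [sub_smul, one_smul, ← h1]; abel
    refine ⟨(ζ - 1)⁻¹ * polar Q c a, ?_⟩
    rw [mul_smul, ← h4, smul_smul, inv_mul_cancel₀ (sub_ne_zero.2 hζ1), one_smul]
  subst hζ1
  have key : ∀ x, polar Q c x • P.u - polar Q P.u x • c - (Q c * polar Q P.u x) • P.u
      = polar Q b x • a - polar Q a x • b - (Q b * polar Q a x) • a := by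
    intro x
    have := hζ x
    rw [Eu_lin, eichOm_lin, one_smul] at this
    have e : ∀ (x p q r p' q' r' : V), x + p - q - r = x + p' - q' - r' → p - q - r = p' - q' - r' := by
      intro x p q r p' q' r' h
      have : x + (p - q - r) = x + (p' - q' - r') := by
        rw [← add_sub_assoc, ← add_sub_assoc, ← add_sub_assoc, ← add_sub_assoc]; exact h
      exact add_left_cancel this
    exact e _ _ _ _ _ _ _ this
  have hbspan : b ∉ Submodule.span F {a} := by
    intro hmem
    obtain ⟨t, rfl⟩ := Submodule.mem_span_singleton.1 hmem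
    rw [QuadraticMap.map_smul, ha, smul_zero] at hb
    exact hb rfl
  obtain ⟨x, hax, hxb⟩ := exists_perp_polar_eq_one hQ hbspan
  have h1 := key x
  rw [hax, polar_comm Q b x, hxb] at h1
  simp only [zero_smul, mul_zero, sub_zero, one_smul] at h1
  -- `a = α u + γ c`
  set γ := -polar Q P.u x with hγ
  set α := polar Q c x - Q c * polar Q P.u x with hα
  have ha' : a = α • P.u + (0 : F) • P.v + γ • c := by
    rw [← h1, hα, hγ]; module
  by_cases hγ0 : γ = 0
  · exact ⟨α, by rw [ha', hγ0]; simp⟩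
  exfalso
  have hQc : Q c = 0 := by
    have := ha
    rw [ha', P.Q_comp _ _ (hc.smul γ), QuadraticMap.map_smul, smul_eq_mul] at this
    have h2 : γ * γ * Q c = 0 := by linear_combination this
    exact (mul_eq_zero.1 h2).resolve_left (mul_ne_zero hγ0 hγ0)
  obtain ⟨x', hx'⟩ := polar_nondeg_exists hQ ha0
  have h2 := key x'
  rw [polar_comm Q a x', hx', hQc] at h2
  simp only [zero_mul, zero_smul, sub_zero, one_smul, mul_one] at h2
  have hb' : b = ((polar Q b x' - Q b) * α - polar Q c x') • P.u + (0 : F) • P.v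
      + ((polar Q b x' - Q b) * γ + polar Q P.u x') • c := by
    have : b = (polar Q b x' - Q b) • a - (polar Q c x' • P.u - polar Q P.u x' • c) := by
      rw [h2]; module
    calc b = (polar Q b x' - Q b) • a - (polar Q c x' • P.u - polar Q P.u x' • c) := this
      _ = (polar Q b x' - Q b) • (α • P.u + (0 : F) • P.v + γ • c)
          - (polar Q c x' • P.u - polar Q P.u x' • c) := by rw [← ha']
      _ = _ := by module
  apply hb
  rw [hb', P.Q_comp _ _ (hc.smul _), QuadraticMap.map_smul, hQc]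
  simp

/-- An element conjugating a non-singular element of `Q_u` into `Q_u` fixes the point `u`. -/
lemma stab_of_conj {g : OmQ Q} {b c : V} (hb : P.InW b) (hbq : Q b ≠ 0) (hc : P.InW c)
    (h : omk g * omk (P.Eu hQ hn b hb) * (omk g)⁻¹ = omk (P.Eu hQ hn c hc)) :
    ∃ l : F, g.lin P.u = l • P.u := by
  rw [← omk_inv, ← omk_mul, ← omk_mul, Eu, eichOm_conj] at h
  exact P.center_of_omk_eq hQ hn _ _ (by rw [g.Q_lin]; exact hbq) hc h


/-! ### the quadratic space `W` -/

/-- `W` as a submodule. -/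
def Wsub : Submodule F V := perp2 Q P.u P.v

omit [Fintype F] [FiniteDimensional F V] in
lemma mem_Wsub {w : V} : w ∈ P.Wsub ↔ P.InW w := mem_perp2

/-- The restriction of `Q` to `W`. -/
def QW : QuadraticForm F ↥P.Wsub := Q.comp P.Wsub.subtype

omit [Fintype F] [FiniteDimensional F V] in
lemma QW_apply (x : ↥P.Wsub) : P.QW x = Q x.1 := rfl

omit [Fintype F] [FiniteDimensional F V] in
lemma polar_QW (x y : ↥P.Wsub) : polar P.QW x y = polar Q x.1 y.1 := rfl

omit [Fintype F] [FiniteDimensional F V] in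
lemma polar_pW_right {w : V} (hw : P.InW w) (x : V) : polar Q w (P.pW x) = polar Q w x := by
  rw [pW, polar_sub_right, polar_sub_right, polar_smul_right, polar_smul_right, hw.u_right,
    hw.v_right]
  simp

omit [Fintype F] [FiniteDimensional F V] in
include hQ in
lemma QW_nondegenerate : (polarBilin P.QW).Nondegenerate := by
  have key : ∀ x : ↥P.Wsub, (∀ y : ↥P.Wsub, polar Q x.1 y.1 = 0) → x = 0 := by
    intro x hx
    apply Subtype.ext
    apply hQ.1 x.1
    intro z
    have := hx ⟨P.pW z, P.mem_Wsub.2 (P.inW_pW z)⟩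
    rw [P.polar_pW_right (P.mem_Wsub.1 x.2)] at this
    exact this
  constructor
  · intro x hx
    exact key x hx
  · intro x hx
    exact key x (fun y => by rw [polar_comm]; exact hx y)

omit [Fintype F] in
lemma finrank_Wsub : finrank F V ≤ finrank F ↥P.Wsub + 2 := le_finrank_perp2 Q P.u P.v

omit [Fintype F] in
include hQ in
/-- A non-singular vector of `W` orthogonal to a given vector. -/
lemma exists_nonsingular_inW_perp (h7 : 7 ≤ finrank F V) (y : V) :
    ∃ z, P.InW z ∧ polar Q y z = 0 ∧ Q z ≠ 0 := by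
  have h1 := P.finrank_Wsub
  have h2 := le_finrank_inf_ker (polarBilin Q y) P.Wsub
  obtain ⟨z, hz, hzq⟩ := exists_nonsingular_of_finrank hQ (P.Wsub ⊓ LinearMap.ker (polarBilin Q y))
    (by omega)
  exact ⟨z, P.mem_Wsub.1 hz.1, hz.2, hzq⟩

/-- A linear endomorphism of `W` commuting with the Eichler transformations of `W` is a scalar. -/
theorem scalar_of_comm_eich (h7 : 7 ≤ finrank F V) {e : V → V}
    (heW : ∀ w, P.InW w → P.InW (e w))
    (hadd : ∀ w w', P.InW w → P.InW w' → e (w + w') = e w + e w')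
    (hsmul : ∀ (c : F) w, P.InW w → e (c • w) = c • e w)
    (hcomm : ∀ (y z : V) (_ : P.InW y) (_ : P.InW z) (hyq : Q y = 0) (hyz : polar Q y z = 0) (w : V),
      P.InW w → e ((eichOm hQ hn y z hyq hyz).lin w) = (eichOm hQ hn y z hyq hyz).lin (e w)) :
    ∃ ν : F, ∀ w, P.InW w → e w = ν • w := by
  let eL : ↥P.Wsub →ₗ[F] ↥P.Wsub :=
    { toFun := fun w => ⟨e w.1, P.mem_Wsub.2 (heW _ (P.mem_Wsub.1 w.2))⟩
      map_add' := fun w w' => Subtype.ext (hadd _ _ (P.mem_Wsub.1 w.2) (P.mem_Wsub.1 w'.2))
      map_smul' := fun c w => Subtype.ext (hsmul c _ (P.mem_Wsub.1 w.2)) }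
  have h1 := P.finrank_Wsub
  obtain ⟨ν, hν⟩ := eq_smul_of_fix_singular (P.QW_nondegenerate hQ) (by omega) eL (by
    intro y hy0 hyq
    have hy : P.InW y.1 := P.mem_Wsub.1 y.2
    have hyq' : Q y.1 = 0 := hyq
    have hy0' : y.1 ≠ 0 := fun h => hy0 (Subtype.ext h)
    have hyy : polar Q y.1 y.1 = 0 := by rw [polar_self, hyq']; simp
    set x := e y.1 with hx
    have hxW : P.InW x := heW _ hy
    have key : ∀ z, P.InW z → polar Q y.1 z = 0 →
        polar Q z x • y.1 - polar Q y.1 x • z - (Q z * polar Q y.1 x) • y.1 = 0 := by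
      intro z hz hyz
      have h2 := hcomm y.1 z hy hz hyq' hyz y.1 hy
      have h3 : (eichOm hQ hn y.1 z hyq' hyz).lin y.1 = y.1 := by
        rw [eichOm_lin, hyy, polar_comm Q z y.1, hyz]; simp
      rw [h3, eichOm_lin, ← hx] at h2
      have h4 : x + (polar Q z x • y.1 - polar Q y.1 x • z - (Q z * polar Q y.1 x) • y.1) = x + 0 := by
        rw [add_zero, ← add_sub_assoc, ← add_sub_assoc]
        exact h2.symm
      exact add_left_cancel h4
    have hyx : polar Q y.1 x = 0 := by
      by_contra hne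
      obtain ⟨z, hz, hyz, hzq⟩ := P.exists_nonsingular_inW_perp hQ h7 y.1
      have h2 := key z hz hyz
      have h3 : z = ((polar Q y.1 x)⁻¹ * (polar Q z x - Q z * polar Q y.1 x)) • y.1 := by
        have : polar Q y.1 x • z = (polar Q z x - Q z * polar Q y.1 x) • y.1 := by
          rw [sub_smul]
          have e : ∀ a b c : V, a - b - c = 0 → b = a - c := by
            intro a b c h
            have : a - c - b = 0 := by rw [← h]; abel
            exact (sub_eq_zero.1 this).symm
          exact e _ _ _ h2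
        rw [mul_smul, ← this, smul_smul, inv_mul_cancel₀ hne, one_smul]
      apply hzq
      rw [h3, QuadraticMap.map_smul, hyq', smul_zero]
    obtain ⟨c, hc⟩ := eq_smul_of_perp_le hQ (d := y.1) (v := x) (by
      intro t ht
      have h2 := key (P.pW t) (P.inW_pW t) (by rw [P.polar_pW_right hy]; exact ht)
      rw [hyx] at h2
      simp only [zero_smul, mul_zero, sub_zero] at h2
      have h3 := (smul_eq_zero.1 h2).resolve_right hy0'
      rw [polar_comm, P.polar_pW_right hxW] at h3
      exact h3)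
    exact ⟨c, Subtype.ext hc⟩)
  refine ⟨ν, fun w hw => ?_⟩
  exact congrArg Subtype.val (hν ⟨w, P.mem_Wsub.2 hw⟩)

/-- Additive endomorphisms of `W` commuting with the action of the Levi factor. -/
structure ComEnd (e : V → V) : Prop where
  inW : ∀ w, P.InW w → P.InW (e w)
  add : ∀ w w', P.InW w → P.InW w' → e (w + w') = e w + e w'
  comm : ∀ (k : OmQ Q) (l : F), P.Tor k l → ∀ w, P.InW w → e (l • k.lin w) = l • k.lin (e w)

variable {P}

omit [Fintype F] [FiniteDimensional F V] in
lemma ComEnd.zero {e : V → V} (he : P.ComEnd e) : e 0 = 0 := by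
  have := he.add 0 0 P.inW_zero P.inW_zero
  rw [add_zero] at this
  exact left_eq_add.1 this

omit [Fintype F] [FiniteDimensional F V] in
lemma ComEnd.neg {e : V → V} (he : P.ComEnd e) {w : V} (hw : P.InW w) : e (-w) = -e w := by
  have := he.add w (-w) hw hw.neg
  rw [add_neg_cancel, he.zero] at this
  exact (neg_eq_of_add_eq_zero_right this.symm).symm

omit [Fintype F] [FiniteDimensional F V] in
lemma ComEnd.sub {e : V → V} (he : P.ComEnd e) {w w' : V} (hw : P.InW w) (hw' : P.InW w') :
    e (w - w') = e w - e w' := by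
  rw [sub_eq_add_neg, he.add _ _ hw hw'.neg, he.neg hw', sub_eq_add_neg]

include hQ hn in
lemma ComEnd.smul_sq {e : V → V} (he : P.ComEnd e) (t : F) {w : V} (hw : P.InW w) :
    e (t ^ 2 • w) = t ^ 2 • e w := by
  by_cases ht : t = 0
  · subst ht
    simp [he.zero]
  obtain ⟨w₀, hw₀, hq₀⟩ := P.exists_nonsingular_inW hQ hn
  have := he.comm _ _ (P.hT_Tor hQ hn w₀ hw₀ hq₀ ht) w hw
  rwa [P.hT_inW hQ hn w₀ hw₀ hq₀ ht hw, P.hT_inW hQ hn w₀ hw₀ hq₀ ht (he.inW w hw)] at this

include hQ hn in
lemma ComEnd.smul {e : V → V} (he : P.ComEnd e) (μ : F) {w : V} (hw : P.InW w) :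
    e (μ • w) = μ • e w := by
  by_cases h2 : (2 : F) = 0
  · have : CharP F 2 := CharTwo.of_one_ne_zero_of_two_eq_zero one_ne_zero h2
    obtain ⟨t, ht⟩ := FiniteField.isSquare_of_char_two (ringChar.eq F 2) μ
    rw [ht, ← pow_two]
    exact he.smul_sq hQ hn t hw
  · have e1 : μ = ((μ + 1) / 2) ^ 2 - ((μ - 1) / 2) ^ 2 := by field_simp; ring
    rw [e1, sub_smul, sub_smul, he.sub (hw.smul _) (hw.smul _), he.smul_sq hQ hn _ hw,
      he.smul_sq hQ hn _ hw]

include hQ hn in
/-- **The commutant of the Levi factor on `W` consists of the scalars.** -/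
theorem ComEnd.scalar (h7 : 7 ≤ finrank F V) {e : V → V} (he : P.ComEnd e) :
    ∃ ν : F, ∀ w, P.InW w → e w = ν • w := by
  apply P.scalar_of_comm_eich hQ hn h7 he.inW he.add (fun c w hw => he.smul hQ hn c hw)
  intro y z hy hz hyq hyz w hw
  have := he.comm _ 1 (P.eich_Tor hQ hn hy hz hyq hyz) w hw
  rwa [one_smul, one_smul] at this

end OPair

end Cfsg.Agent.Lib.Helper5
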