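import Mathlib
import Cfsg.Agent.Lib.Helper5.OAut2

set_option autoImplicit false

/-! # Automorphisms of `PΩ(Q)`, part 3: the semilinear maps induced on `W ≅ Q_u ≅ Q_v` -/

namespace Cfsg.Agent.Lib.Helper5

open QuadraticMap Module Cfsg.Agent.Lib.Helper44

variable {F V : Type*} [Field F] [AddCommGroup V] [Module F V]

namespace OPair

variable [Fintype F] [FiniteDimensional F V] {Q : QuadraticForm F V} (P : OPair Q)
  (hQ : (polarBilin Q).Nondegenerate) (hn : 5 ≤ finrank F V)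

local notation "PG" => (OmQ Q ⧸ Subgroup.center (OmQ Q))

/-- `β` maps `Q_u` (modulo the centre) into itself. -/
def AdmU (β : PG ≃* PG) : Prop :=
  ∀ (w : V) (hw : P.InW w), ∃ (w' : V) (hw' : P.InW w'),
    β (omk (P.Eu hQ hn w hw)) = omk (P.Eu hQ hn w' hw')

/-- `β` maps `Q_u` and `Q_v` (modulo the centre) into themselves. -/
structure OAdm (β : PG ≃* PG) : Prop where
  hU : P.AdmU hQ hn β
  hV : P.swap.AdmU hQ hn β

/-- The relation induced by `β` on `W`. -/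
def Rel (β : PG ≃* PG) (w w' : V) : Prop :=
  ∃ (hw : P.InW w) (hw' : P.InW w'), β (omk (P.Eu hQ hn w hw)) = omk (P.Eu hQ hn w' hw')

variable {P hQ hn}

lemma OAdm.swap {β : PG ≃* PG} (h : P.OAdm hQ hn β) : P.swap.OAdm hQ hn β := ⟨h.hV, h.hU⟩

lemma Rel.unique {β : PG ≃* PG} {w w₁ w₂ : V} (h₁ : P.Rel hQ hn β w w₁)
    (h₂ : P.Rel hQ hn β w w₂) : w₁ = w₂ := by
  obtain ⟨hw, hw₁, e₁⟩ := h₁
  obtain ⟨_, hw₂, e₂⟩ := h₂
  exact P.Eu_inj hQ hn hw₁ hw₂ (e₁.symm.trans e₂)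

lemma Rel.total {β : PG ≃* PG} (hβ : P.AdmU hQ hn β) {w : V} (hw : P.InW w) :
    ∃ w', P.Rel hQ hn β w w' := by
  obtain ⟨w', hw', h⟩ := hβ w hw
  exact ⟨w', hw, hw', h⟩

lemma Rel.add {β : PG ≃* PG} {w₁ w₁' w₂ w₂' : V} (h₁ : P.Rel hQ hn β w₁ w₁')
    (h₂ : P.Rel hQ hn β w₂ w₂') : P.Rel hQ hn β (w₁ + w₂) (w₁' + w₂') := by
  obtain ⟨hw₁, hw₁', e₁⟩ := h₁
  obtain ⟨hw₂, hw₂', e₂⟩ := h₂
  refine ⟨hw₁.add hw₂, hw₁'.add hw₂', ?_⟩
  rw [P.Eu_add hQ hn w₁ w₂ hw₁ hw₂, P.Eu_add hQ hn w₁' w₂' hw₁' hw₂', omk_mul, omk_mul, map_mul,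
    e₁, e₂]

lemma Rel.symm {β : PG ≃* PG} {w w' : V} (h : P.Rel hQ hn β w w') : P.Rel hQ hn β.symm w' w := by
  obtain ⟨hw, hw', e⟩ := h
  exact ⟨hw', hw, by rw [← e, MulEquiv.symm_apply_apply]⟩

lemma Rel.tor {β : PG ≃* PG} {k k' : OmQ Q} {l l' : F} (hk : P.Tor k l) (hk' : P.Tor k' l')
    (hkk : β (omk k) = omk k') {w w' : V} (h : P.Rel hQ hn β w w') :
    P.Rel hQ hn β (l • k.lin w) (l' • k'.lin w') := by
  obtain ⟨hw, hw', e⟩ := h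
  refine ⟨(hk.inW hw).smul l, (hk'.inW hw').smul l', ?_⟩
  rw [← hk.conj_Eu hQ hn w hw, ← hk'.conj_Eu hQ hn w' hw', omk_mul, omk_mul, omk_mul, omk_mul,
    omk_inv, omk_inv, map_mul, map_mul, map_inv, e, hkk]

lemma exists_stab {β : PG ≃* PG} (hβ : P.AdmU hQ hn β) (hβ' : P.AdmU hQ hn β.symm) {k k' : OmQ Q}
    {l : F} (hk : P.Tor k l) (hk' : β (omk k) = omk k') : ∃ l' : F, k'.lin P.u = l' • P.u := by
  obtain ⟨b, hb, hbq⟩ := P.exists_nonsingular_inW hQ hn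
  obtain ⟨x, hx, e₁⟩ := hβ' b hb
  obtain ⟨c, hc, e₂⟩ := hβ _ ((hk.inW hx).smul l)
  apply P.stab_of_conj hQ hn hb hbq hc
  rw [← e₂, ← hk.conj_Eu hQ hn x hx, omk_mul, omk_mul, omk_inv, map_mul, map_mul, map_inv, hk',
    ← e₁, MulEquiv.apply_symm_apply]

/-- Lifting the Levi factor. -/
lemma exists_tor {β : PG ≃* PG} (hβ : P.OAdm hQ hn β) (hβ' : P.OAdm hQ hn β.symm) {k : OmQ Q}
    {l : F} (hk : P.Tor k l) : ∃ (k' : OmQ Q) (l' : F), P.Tor k' l' ∧ β (omk k) = omk k' := by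
  obtain ⟨k', hk'⟩ := omk_surj (β (omk k))
  obtain ⟨l₁, h₁⟩ := exists_stab hβ.hU hβ'.hU hk hk'.symm
  obtain ⟨l₂, h₂⟩ := exists_stab hβ.hV hβ'.hV hk.swap hk'.symm
  exact ⟨k', l₁, P.tor_of_fix h₁ h₂, hk'.symm⟩

variable (P hQ hn) in
/-- The map induced by `β` on `W`. -/
noncomputable def bmap (β : PG ≃* PG) (w : V) : V := by
  classical exact if h : ∃ w', P.Rel hQ hn β w w' then h.choose else 0

lemma bmap_rel {β : PG ≃* PG} (hβ : P.AdmU hQ hn β) {w : V} (hw : P.InW w) :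
    P.Rel hQ hn β w (P.bmap hQ hn β w) := by
  have h := Rel.total hβ hw
  rw [bmap, dif_pos h]
  exact h.choose_spec

lemma bmap_eq {β : PG ≃* PG} (hβ : P.AdmU hQ hn β) {w w' : V} (h : P.Rel hQ hn β w w') :
    P.bmap hQ hn β w = w' := (bmap_rel hβ h.1).unique h

lemma bmap_inW {β : PG ≃* PG} (hβ : P.AdmU hQ hn β) {w : V} (hw : P.InW w) :
    P.InW (P.bmap hQ hn β w) := (bmap_rel hβ hw).2.1

lemma bmap_add {β : PG ≃* PG} (hβ : P.AdmU hQ hn β) {w w' : V} (hw : P.InW w) (hw' : P.InW w') :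
    P.bmap hQ hn β (w + w') = P.bmap hQ hn β w + P.bmap hQ hn β w' :=
  bmap_eq hβ ((bmap_rel hβ hw).add (bmap_rel hβ hw'))

lemma bmap_zero {β : PG ≃* PG} (hβ : P.AdmU hQ hn β) : P.bmap hQ hn β 0 = 0 := by
  have := bmap_add hβ P.inW_zero P.inW_zero
  rw [add_zero] at this
  exact left_eq_add.1 this

lemma bmap_symm_bmap {β : PG ≃* PG} (hβ : P.AdmU hQ hn β) (hβ' : P.AdmU hQ hn β.symm) {w : V}
    (hw : P.InW w) : P.bmap hQ hn β.symm (P.bmap hQ hn β w) = w :=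
  bmap_eq hβ' (bmap_rel hβ hw).symm

lemma bmap_bmap_symm {β : PG ≃* PG} (hβ : P.AdmU hQ hn β) (hβ' : P.AdmU hQ hn β.symm) {w : V}
    (hw : P.InW w) : P.bmap hQ hn β (P.bmap hQ hn β.symm w) = w :=
  bmap_eq hβ (bmap_rel hβ' hw).symm

lemma bmap_tor {β : PG ≃* PG} (hβ : P.AdmU hQ hn β) {k k' : OmQ Q} {l l' : F} (hk : P.Tor k l)
    (hk' : P.Tor k' l') (hkk : β (omk k) = omk k') {w : V} (hw : P.InW w) :
    P.bmap hQ hn β (l • k.lin w) = l' • k'.lin (P.bmap hQ hn β w) :=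
  bmap_eq hβ ((bmap_rel hβ hw).tor hk hk' hkk)

lemma bmap_ne_zero {β : PG ≃* PG} (hβ : P.AdmU hQ hn β) (hβ' : P.AdmU hQ hn β.symm) {w : V}
    (hw : P.InW w) (hw0 : w ≠ 0) : P.bmap hQ hn β w ≠ 0 := by
  intro h
  apply hw0
  rw [← bmap_symm_bmap hβ hβ' hw, h, bmap_zero hβ']

lemma comEnd_bmap {β : PG ≃* PG} (hβ : P.OAdm hQ hn β) (hβ' : P.OAdm hQ hn β.symm) (μ : F) :
    P.ComEnd (fun w => P.bmap hQ hn β (μ • P.bmap hQ hn β.symm w)) where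
  inW w hw := bmap_inW hβ.hU ((bmap_inW hβ'.hU hw).smul _)
  add w w' hw hw' := by
    rw [bmap_add hβ'.hU hw hw', smul_add,
      bmap_add hβ.hU ((bmap_inW hβ'.hU hw).smul _) ((bmap_inW hβ'.hU hw').smul _)]
  comm k' l' hk' w hw := by
    obtain ⟨k, l, hk, hkk⟩ := exists_tor hβ' hβ hk'
    have hkk' : β (omk k) = omk k' := by rw [← hkk, MulEquiv.apply_symm_apply]
    rw [bmap_tor hβ'.hU hk' hk hkk hw, smul_comm, ← map_smul,
      bmap_tor hβ.hU hk hk' hkk' ((bmap_inW hβ'.hU hw).smul _)]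

/-- Semilinearity. -/
lemma exists_sigma (h7 : 7 ≤ finrank F V) {β : PG ≃* PG} (hβ : P.OAdm hQ hn β)
    (hβ' : P.OAdm hQ hn β.symm) (μ : F) :
    ∃ ν : F, ∀ w, P.InW w → P.bmap hQ hn β (μ • w) = ν • P.bmap hQ hn β w := by
  obtain ⟨ν, hν⟩ := (comEnd_bmap hβ hβ' μ).scalar hQ hn h7
  refine ⟨ν, fun w hw => ?_⟩
  have := hν _ (bmap_inW hβ.hU hw)
  rwa [bmap_symm_bmap hβ.hU hβ'.hU hw] at this

/-- The field automorphism. -/
lemma exists_ringEquiv (h7 : 7 ≤ finrank F V) {β : PG ≃* PG} (hβ : P.OAdm hQ hn β)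
    (hβ' : P.OAdm hQ hn β.symm) :
    ∃ σ : F ≃+* F, ∀ (μ : F) w, P.InW w → P.bmap hQ hn β (μ • w) = σ μ • P.bmap hQ hn β w := by
  choose s hs using exists_sigma h7 hβ hβ'
  obtain ⟨z, hz, hzz⟩ := P.exists_nonsingular_inW hQ hn
  have hz0 : z ≠ 0 := by rintro rfl; exact hzz (map_zero Q)
  have hb0 := bmap_ne_zero hβ.hU hβ'.hU hz hz0
  have hinj : ∀ a b : F, a • P.bmap hQ hn β z = b • P.bmap hQ hn β z → a = b := by
    intro a b h
    exact smul_left_injective F hb0 h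
  let σ₀ : F →+* F :=
    { toFun := s
      map_one' := by
        apply hinj
        rw [← hs 1 z hz, one_smul, one_smul]
      map_mul' := by
        intro a b
        apply hinj
        rw [← hs _ z hz, mul_smul, hs a _ (hz.smul _), hs b z hz, smul_smul]
      map_zero' := by
        apply hinj
        rw [← hs _ z hz, zero_smul, zero_smul, bmap_zero hβ.hU]
      map_add' := by
        intro a b
        apply hinj
        rw [← hs _ z hz, add_smul, bmap_add hβ.hU (hz.smul _) (hz.smul _), hs a z hz, hs b z hz,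
          add_smul] }
  have hbij : Function.Bijective σ₀ := Finite.injective_iff_bijective.1 σ₀.injective
  exact ⟨RingEquiv.ofBijective σ₀ hbij, fun μ w hw => hs μ w hw⟩

/-- The relation between the actions on `Q_u` and `Q_v`:
`E_u(w)⟨v⟩ = E_v(-w/Q(w))⟨u⟩`. -/
lemma rel_swap {β : PG ≃* PG} (hβ : P.OAdm hQ hn β) (hβ' : P.OAdm hQ hn β.symm) {w w₁ w₂ : V}
    (hq : Q w ≠ 0) (h₁ : P.Rel hQ hn β w w₁) (h₂ : P.swap.Rel hQ hn β ((-(Q w)⁻¹) • w) w₂) :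
    Q w₁ ≠ 0 ∧ w₂ = (-(Q w₁)⁻¹) • w₁ := by
  obtain ⟨hw, hw₁, e₁⟩ := h₁
  obtain ⟨hw', hw₂, e₂⟩ := h₂
  set g := P.Eu hQ hn w hw with hg
  set g₂ := P.swap.Eu hQ hn ((-(Q w)⁻¹) • w) hw' with hg₂
  set m := g₂⁻¹ * g with hm
  set m' := (P.swap.Eu hQ hn w₂ hw₂)⁻¹ * P.Eu hQ hn w₁ hw₁ with hm'
  have hmm : β (omk m) = omk m' := by
    rw [hm, hm', omk_mul, omk_mul, omk_inv, omk_inv, map_mul, map_inv, e₁, e₂]
  have hg₂u : g₂.lin P.u = P.u - (-(Q w)⁻¹) • w - Q ((-(Q w)⁻¹) • w) • P.v := P.swap.Eu_v hQ hn _ _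
  have hmv : m.lin P.v = (-Q w) • P.u := by
    have : g.lin P.v = g₂.lin ((-Q w) • P.u) := by
      rw [map_smul, hg₂u, hg, Eu_v, QuadraticMap.map_smul, smul_eq_mul]
      have h4 : -(Q w)⁻¹ * -(Q w)⁻¹ * Q w = (Q w)⁻¹ := by field_simp
      rw [h4, smul_sub, smul_sub, smul_smul, smul_smul]
      have h5 : -Q w * -(Q w)⁻¹ = 1 := by field_simp
      have h6 : -Q w * (Q w)⁻¹ = -1 := by field_simp
      rw [h5, h6]
      module
    rw [hm, OmQ.lin_mul, this, OmQ.lin_inv_lin]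
  obtain ⟨b, hb, hbq⟩ := P.exists_nonsingular_inW hQ hn
  obtain ⟨x, hx, e₃⟩ := hβ'.hV b hb.swap
  -- `m E_v(x) m⁻¹` lies in `Q_u`
  have hperp : polar Q P.u ((-Q w) • m.lin x) = 0 := by
    have h1 : polar Q (m.lin P.v) (m.lin x) = 0 := by rw [m.polar_lin]; exact hx.1
    rw [hmv, polar_smul_left, smul_eq_mul] at h1
    rw [polar_smul_right, (mul_eq_zero.1 h1).resolve_left (neg_ne_zero.2 hq), smul_zero]
  have e₄ : m * P.swap.Eu hQ hn x hx * m⁻¹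
      = P.Eu hQ hn (P.pW ((-Q w) • m.lin x)) (P.inW_pW _) := by
    rw [← P.eichOm_eq_Eu hQ hn _ hperp, Eu, eichOm_conj]
    have h1 : polar Q P.u (m.lin x) = 0 := by
      rw [polar_smul_right, smul_eq_mul] at hperp
      exact (mul_eq_zero.1 hperp).resolve_left (neg_ne_zero.2 hq)
    rw [← eichOm_smul_left hQ hn P.u (m.lin x) (-Q w) P.hu h1]
    exact eichOm_congr hQ hn hmv rfl _ _
  obtain ⟨c, hc, e₅⟩ := hβ.hU _ (P.inW_pW ((-Q w) • m.lin x))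
  have e₆ : omk (eichOm hQ hn (m'.lin P.v) (m'.lin b) (by rw [m'.Q_lin, P.hv])
      (by rw [m'.polar_lin]; exact hb.2)) = omk (P.Eu hQ hn c hc) := by
    have s1 := (eichOm_conj hQ hn m' P.v b P.hv hb.2).symm
    have s2 : β (omk (P.swap.Eu hQ hn x hx)) = omk (P.swap.Eu hQ hn b hb.swap) := by
      rw [← e₃, MulEquiv.apply_symm_apply]
    calc _ = omk m' * omk (P.swap.Eu hQ hn b hb.swap) * (omk m')⁻¹ := by rw [s1]; rfl
      _ = β (omk m) * β (omk (P.swap.Eu hQ hn x hx)) * (β (omk m))⁻¹ := by rw [hmm, s2]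
      _ = β (omk (m * P.swap.Eu hQ hn x hx * m⁻¹)) := by
        rw [← map_inv, ← map_mul, ← map_mul]; rfl
      _ = omk (P.Eu hQ hn c hc) := by rw [e₄, e₅]
  obtain ⟨l, hl⟩ := P.center_of_omk_eq hQ hn _ _ (by rw [m'.Q_lin]; exact hbq) hc e₆
  have h7 : (P.Eu hQ hn w₁ hw₁).lin P.v = l • (P.swap.Eu hQ hn w₂ hw₂).lin P.u := by
    rw [← map_smul, ← hl, hm', OmQ.lin_mul, OmQ.lin_lin_inv]
  have h8 : (P.swap.Eu hQ hn w₂ hw₂).lin P.u = P.u - w₂ - Q w₂ • P.v := P.swap.Eu_v hQ hn _ _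
  rw [Eu_v, h8] at h7
  have h9 : (-Q w₁) • P.u + (1 : F) • P.v + (-w₁) = l • P.u + (-(l * Q w₂)) • P.v + (-(l • w₂)) := by
    have e : (-Q w₁) • P.u + (1 : F) • P.v + (-w₁) = P.v - w₁ - Q w₁ • P.u := by module
    rw [e, h7]; module
  obtain ⟨c1, c2, c3⟩ := P.comp_ext hw₁.neg (hw₂.unswap.smul l).neg h9
  have hl0 : l ≠ 0 := by
    rintro rfl
    simp at c2
  have hq₁ : Q w₁ ≠ 0 := by
    intro h0
    rw [h0, neg_zero] at c1
    exact hl0 c1.symm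
  refine ⟨hq₁, ?_⟩
  have c3' : w₁ = l • w₂ := neg_injective c3
  have c4 : w₂ = l⁻¹ • w₁ := by rw [c3', smul_smul, inv_mul_cancel₀ hl0, one_smul]
  rw [c4, ← c1, inv_neg]

end OPair

end Cfsg.Agent.Lib.Helper5
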