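import Mathlib
import Cfsg.Agent.Lib.Helper5.OAut3

set_option autoImplicit false

/-! # Automorphisms of `PΩ(Q)`, part 4: the induced map on `W` is a semisimilarity -/

namespace Cfsg.Agent.Lib.Helper5

open QuadraticMap Module Cfsg.Agent.Lib.Helper44

variable {F V : Type*} [Field F] [AddCommGroup V] [Module F V]

section

variable [Fintype F] [FiniteDimensional F V] {Q : QuadraticForm F V}
  (hQ : (polarBilin Q).Nondegenerate) (hn : 5 ≤ finrank F V)

/-- Eichler transformations have no eigenvalue different from `1`. -/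
lemma eich_eigen {y z X : V} (hyq : Q y = 0) (hyz : polar Q y z = 0) {s : F} (hX : X ≠ 0)
    (h : X = s • (eichOm hQ hn y z hyq hyz).lin X) : s = 1 := by
  by_contra hs
  have hs' : (1 - s) ≠ 0 := sub_ne_zero.2 (Ne.symm hs)
  have hyy : polar Q y y = 0 := by rw [polar_self, hyq]; simp
  rw [eichOm_lin] at h
  have h1 := congrArg (fun t => polar Q y t) h
  simp only [polar_smul_right, polar_add_right, polar_sub_right, hyy, hyz, smul_eq_mul, mul_zero,
    add_zero, sub_zero] at h1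
  have h2 : polar Q y X = 0 := by
    have : (1 - s) * polar Q y X = 0 := by linear_combination h1
    exact (mul_eq_zero.1 this).resolve_left hs'
  rw [h2] at h
  simp only [zero_smul, mul_zero, sub_zero] at h
  have h3 := congrArg (fun t => polar Q z t) h
  simp only [polar_smul_right, polar_add_right, polar_comm Q z y, hyz, smul_eq_mul, mul_zero,
    add_zero] at h3
  have h4 : polar Q z X = 0 := by
    have : (1 - s) * polar Q z X = 0 := by linear_combination h3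
    exact (mul_eq_zero.1 this).resolve_left hs'
  rw [h4, zero_smul, add_zero] at h
  have h5 : (1 - s) • X = 0 := by rw [sub_smul, one_smul, ← h, sub_self]
  exact hX ((smul_eq_zero.1 h5).resolve_left hs')

end

namespace OPair

variable [Fintype F] [FiniteDimensional F V] {Q : QuadraticForm F V} {P : OPair Q}
  {hQ : (polarBilin Q).Nondegenerate} {hn : 5 ≤ finrank F V}

local notation "PG" => (OmQ Q ⧸ Subgroup.center (OmQ Q))

lemma bmap_swap_rel {β : PG ≃* PG} (hβ : P.OAdm hQ hn β) (hβ' : P.OAdm hQ hn β.symm) {w : V}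
    (hw : P.InW w) (hq : Q w ≠ 0) :
    Q (P.bmap hQ hn β w) ≠ 0 ∧ P.swap.bmap hQ hn β ((-(Q w)⁻¹) • w)
      = (-(Q (P.bmap hQ hn β w))⁻¹) • P.bmap hQ hn β w :=
  rel_swap hβ hβ' hq (bmap_rel hβ.hU hw) (bmap_rel hβ.hV (hw.smul _).swap)

lemma bmap_singular {β : PG ≃* PG} (hβ : P.OAdm hQ hn β) (hβ' : P.OAdm hQ hn β.symm) {w : V}
    (hw : P.InW w) (hq : Q w = 0) : Q (P.bmap hQ hn β w) = 0 := by
  by_contra hne
  have := (bmap_swap_rel hβ' hβ (bmap_inW hβ.hU hw) hne).1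
  rw [bmap_symm_bmap hβ.hU hβ'.hU hw] at this
  exact this hq

/-- **The induced map on `W` is a semisimilarity**, and the maps induced on `Q_u` and `Q_v` are
proportional. -/
theorem exists_form (h7 : 7 ≤ finrank F V) {β : PG ≃* PG} (hβ : P.OAdm hQ hn β)
    (hβ' : P.OAdm hQ hn β.symm) (σ : F ≃+* F)
    (hσ : ∀ (μ : F) w, P.InW w → P.bmap hQ hn β (μ • w) = σ μ • P.bmap hQ hn β w) :
    ∃ c : F, c ≠ 0 ∧ (∀ w, P.InW w → Q (P.bmap hQ hn β w) = c * σ (Q w)) ∧
      (∀ w, P.InW w → P.swap.bmap hQ hn β w = c⁻¹ • P.bmap hQ hn β w) := by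
  obtain ⟨σ', hσ'⟩ := exists_ringEquiv h7 hβ.swap hβ'.swap
  set φ := P.bmap hQ hn β with hφ
  set ψ := P.swap.bmap hQ hn β with hψ
  set φ' := P.bmap hQ hn β.symm with hφ'
  obtain ⟨z₀, hz₀, hzq₀⟩ := P.exists_nonsingular_inW hQ hn
  have hz₀0 : z₀ ≠ 0 := by rintro rfl; exact hzq₀ (map_zero Q)
  have hφW : ∀ w, P.InW w → P.InW (φ w) := fun w hw => bmap_inW hβ.hU hw
  have hψW : ∀ w, P.InW w → P.InW (ψ w) := fun w hw => (bmap_inW hβ.hV hw.swap).unswap
  have hφ'W : ∀ w, P.InW w → P.InW (φ' w) := fun w hw => bmap_inW hβ'.hU hw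
  have hφφ' : ∀ w, P.InW w → φ (φ' w) = w := fun w hw => bmap_bmap_symm hβ.hU hβ'.hU hw
  have hφ'φ : ∀ w, P.InW w → φ' (φ w) = w := fun w hw => bmap_symm_bmap hβ.hU hβ'.hU hw
  have R1 : ∀ w, P.InW w → Q w ≠ 0 →
      Q (φ w) ≠ 0 ∧ σ' (-(Q w)⁻¹) • ψ w = (-(Q (φ w))⁻¹) • φ w := by
    intro w hw hq
    obtain ⟨h1, h2⟩ := bmap_swap_rel hβ hβ' hw hq
    exact ⟨h1, by rw [← hσ' _ w hw.swap]; exact h2⟩
  -- the two field automorphisms agree
  have hσσ : ∀ μ, σ' μ = σ μ := by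
    intro μ
    by_cases hμ : μ = 0
    · rw [hμ, map_zero, map_zero]
    obtain ⟨hq1, e1⟩ := R1 z₀ hz₀ hzq₀
    have hq2 : Q (μ • z₀) ≠ 0 := by
      rw [QuadraticMap.map_smul, smul_eq_mul]; exact mul_ne_zero (mul_ne_zero hμ hμ) hzq₀
    obtain ⟨-, e2⟩ := R1 (μ • z₀) (hz₀.smul μ) hq2
    rw [hσ' μ z₀ hz₀.swap, hσ μ z₀ hz₀, QuadraticMap.map_smul, QuadraticMap.map_smul, smul_smul,
      smul_smul] at e2
    simp only [smul_eq_mul] at e2
    have hσμ : σ μ ≠ 0 := by rw [Ne, map_eq_zero_iff σ σ.injective]; exact hμ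
    have hσ'μ : σ' μ ≠ 0 := by rw [Ne, map_eq_zero_iff σ' σ'.injective]; exact hμ
    have a1 : σ' (-(μ * μ * Q z₀)⁻¹) * σ' μ = (σ' μ)⁻¹ * σ' (-(Q z₀)⁻¹) := by
      rw [← map_inv₀, ← map_mul, ← map_mul]
      congr 1
      field_simp
    have a2 : -(σ μ * σ μ * Q (φ z₀))⁻¹ * σ μ = (σ μ)⁻¹ * (-(Q (φ z₀))⁻¹) := by
      field_simp
    rw [a1, a2, mul_smul, mul_smul, e1] at e2
    have hne : (-(Q (φ z₀))⁻¹) • φ z₀ ≠ 0 :=
      smul_ne_zero (neg_ne_zero.2 (inv_ne_zero hq1)) (bmap_ne_zero hβ.hU hβ'.hU hz₀ hz₀0)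
    exact inv_injective (smul_left_injective F hne e2)
  have hψsmul : ∀ (μ : F) w, P.InW w → ψ (μ • w) = σ μ • ψ w := by
    intro μ w hw
    rw [← hσσ]; exact hσ' μ w hw.swap
  have hφ'smul : ∀ (μ : F) w, P.InW w → φ' (σ μ • w) = μ • φ' w := by
    intro μ w hw
    have := hσ μ (φ' w) (hφ'W w hw)
    rw [hφφ' w hw] at this
    rw [← this, hφ'φ _ ((hφ'W w hw).smul μ)]
  -- the linear map `e = φ⁻¹ ψ`
  obtain ⟨ν, hν⟩ := P.scalar_of_comm_eich hQ hn h7 (e := fun w => φ' (ψ w))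
    (fun w hw => hφ'W _ (hψW w hw))
    (fun w w' hw hw' => by
      show φ' (ψ (w + w')) = φ' (ψ w) + φ' (ψ w')
      rw [hψ, bmap_add hβ.hV hw.swap hw'.swap, ← hψ, hφ', bmap_add hβ'.hU (hψW w hw) (hψW w' hw')])
    (fun c w hw => by
      show φ' (ψ (c • w)) = c • φ' (ψ w)
      rw [hψsmul c w hw, hφ'smul c _ (hψW w hw)])
    (by
      intro y z hy hz hyq hyz w hw
      show φ' (ψ ((eichOm hQ hn y z hyq hyz).lin w)) = (eichOm hQ hn y z hyq hyz).lin (φ' (ψ w))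
      set k := eichOm hQ hn y z hyq hyz with hk
      have hkT : P.Tor k 1 := P.eich_Tor hQ hn hy hz hyq hyz
      obtain ⟨k', l', hk', hkk⟩ := exists_tor hβ hβ' hkT
      have hl' : l' ≠ 0 := hk'.1
      have A : ∀ x, P.InW x → φ (k.lin x) = l' • k'.lin (φ x) := by
        intro x hx
        have := bmap_tor hβ.hU hkT hk' hkk hx
        rwa [one_smul] at this
      have B : ∀ x, P.InW x → ψ (k.lin x) = l'⁻¹ • k'.lin (ψ x) := by
        intro x hx
        have := bmap_tor hβ.hV hkT.swap hk'.swap hkk hx.swap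
        rwa [inv_one, one_smul] at this
      set s := σ.symm (l'⁻¹ * l'⁻¹) with hs
      have C : ∀ x, P.InW x → φ' (ψ (k.lin x)) = s • k.lin (φ' (ψ x)) := by
        intro x hx
        have hex : P.InW (φ' (ψ x)) := hφ'W _ (hψW x hx)
        have h1 := A _ hex
        rw [hφφ' _ (hψW x hx)] at h1
        have h2 : l'⁻¹ • k'.lin (ψ x) = σ s • φ (k.lin (φ' (ψ x))) := by
          rw [h1, hs, RingEquiv.apply_symm_apply, smul_smul, mul_assoc, inv_mul_cancel₀ hl', mul_one]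
        rw [B x hx, h2, hφ'smul s _ (hφW _ (hkT.inW hex)), hφ'φ _ (hkT.inW hex)]
      have hs1 : s = 1 := by
        obtain ⟨x₀, hx₀, hx₀0, hkx₀⟩ : ∃ x₀, P.InW x₀ ∧ x₀ ≠ 0 ∧ k.lin x₀ = x₀ := by
          by_cases hy0 : y = 0
          · refine ⟨z₀, hz₀, hz₀0, ?_⟩
            rw [hk, eichOm_lin, hy0]; simp
          · refine ⟨y, hy, hy0, ?_⟩
            rw [hk, eichOm_lin, polar_comm Q z y, hyz, polar_self, hyq]; simp
        have h1 := C x₀ hx₀
        rw [hkx₀] at h1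
        refine eich_eigen hQ hn hyq hyz ?_ h1
        exact bmap_ne_zero hβ'.hU hβ.hU (hψW _ hx₀)
          (bmap_ne_zero hβ.hV hβ'.hV hx₀.swap hx₀0)
      rw [C w hw, hs1, one_smul])
  have hν' : ∀ w, P.InW w → ψ w = σ ν • φ w := by
    intro w hw
    have h1 : φ' (ψ w) = ν • w := hν w hw
    rw [← hσ ν w hw, ← h1, hφφ' _ (hψW w hw)]
  have hν0 : σ ν ≠ 0 := by
    intro h0
    have := hν' z₀ hz₀
    rw [h0, zero_smul] at this
    exact bmap_ne_zero hβ.hV hβ'.hV hz₀.swap hz₀0 this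
  refine ⟨(σ ν)⁻¹, inv_ne_zero hν0, ?_, fun w hw => by rw [inv_inv]; exact hν' w hw⟩
  intro w hw
  by_cases hq : Q w = 0
  · rw [hq, map_zero, mul_zero]
    exact bmap_singular hβ hβ' hw hq
  obtain ⟨hq1, e1⟩ := R1 w hw hq
  rw [hν' w hw, smul_smul, hσσ] at e1
  have hw0 : w ≠ 0 := by rintro rfl; exact hq (map_zero Q)
  have e2 := smul_left_injective F (bmap_ne_zero hβ.hU hβ'.hU hw hw0) e1
  have hσq : σ (Q w) ≠ 0 := by rw [Ne, map_eq_zero_iff σ σ.injective]; exact hq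
  rw [map_neg, map_inv₀] at e2
  field_simp at e2
  field_simp
  linear_combination -e2

end OPair

end Cfsg.Agent.Lib.Helper5
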