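import Mathlib
import Cfsg.Agent.Lib.Helper5.OAut4

set_option autoImplicit false

/-! # Automorphisms of `PΩ(Q)`, part 5: admissible automorphisms are induced by semisimilarities -/

namespace Cfsg.Agent.Lib.Helper5

open QuadraticMap Module Cfsg.Agent.Lib.Helper44

variable {F V : Type*} [Field F] [AddCommGroup V] [Module F V]

/-! ### generation of `Ω` by `Q_u` and `Q_v` -/

section gen

variable [Fintype F] [FiniteDimensional F V] {Q : QuadraticForm F V}
  (hQ : (polarBilin Q).Nondegenerate) (hn : 5 ≤ finrank F V)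

/-- All Eichler transformations with centre `x` lie in `S`. -/
def Good (S : Subgroup (OmQ Q)) (x : V) : Prop :=
  ∀ (z : V) (hx : Q x = 0) (hxz : polar Q x z = 0), eichOm hQ hn x z hx hxz ∈ S

variable {hQ hn}

lemma Good.smul {S : Subgroup (OmQ Q)} {x : V} (h : Good hQ hn S x) (hx : Q x = 0) (a : F) :
    Good hQ hn S (a • x) := by
  intro z hax haxz
  by_cases ha : a = 0
  · have : eichOm hQ hn (a • x) z hax haxz = 1 := by
      apply OmQ.ext
      intro y
      rw [eichOm_lin, ha, OmQ.lin_one]; simp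
    rw [this]; exact S.one_mem
  have hxz : polar Q x z = 0 := by
    rw [polar_smul_left, smul_eq_mul] at haxz
    exact (mul_eq_zero.1 haxz).resolve_left ha
  rw [eichOm_smul_left hQ hn x z a hx hxz]
  exact h _ _ _

lemma Good.map {S : Subgroup (OmQ Q)} {x : V} (h : Good hQ hn S x) {g : OmQ Q} (hg : g ∈ S) :
    Good hQ hn S (g.lin x) := by
  intro z hgx hgxz
  have hx : Q x = 0 := by rw [← g.Q_lin]; exact hgx
  have hxz : polar Q x (g⁻¹.lin z) = 0 := by
    rw [← g.polar_lin, OmQ.lin_lin_inv]; exact hgxz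
  have e := eichOm_conj hQ hn g x (g⁻¹.lin z) hx hxz
  have e' : eichOm hQ hn (g.lin x) z hgx hgxz = g * eichOm hQ hn x (g⁻¹.lin z) hx hxz * g⁻¹ := by
    rw [e]
    exact eichOm_congr hQ hn rfl (OmQ.lin_lin_inv g z).symm _ _
  rw [e']
  exact S.mul_mem (S.mul_mem hg (h _ _ _)) (S.inv_mem hg)

lemma OPair.good_u (P : OPair Q) {S : Subgroup (OmQ Q)} (hU : ∀ w hw, P.Eu hQ hn w hw ∈ S) :
    Good hQ hn S P.u := by
  intro z _ hz
  rw [P.eichOm_eq_Eu hQ hn z hz]
  exact hU _ _

lemma OPair.good_of_not_perp (P : OPair Q) {S : Subgroup (OmQ Q)}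
    (hU : ∀ w hw, P.Eu hQ hn w hw ∈ S) (hv : Good hQ hn S P.v) {x : V} (hx : Q x = 0)
    (hne : polar Q P.u x ≠ 0) : Good hQ hn S x := by
  set b := polar Q P.u x with hb
  set a := polar Q P.v x with ha
  set w₁ := (-b⁻¹) • P.pW x with hw₁
  have hw₁W : P.InW w₁ := (P.inW_pW x).smul _
  have hQx : a * b + Q (P.pW x) = 0 := by
    rw [← P.Q_comp a b (P.inW_pW x), ← P.decomp x, hx]
  have e : x = b • (P.Eu hQ hn w₁ hw₁W).lin P.v := by
    rw [OPair.Eu_v, hw₁, QuadraticMap.map_smul, smul_eq_mul]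
    have h1 : Q (P.pW x) = -(a * b) := by linear_combination hQx
    rw [h1]
    have h2 : b * (-b⁻¹ * -b⁻¹ * -(a * b)) = -a := by field_simp
    conv_lhs => rw [P.decomp x]
    rw [smul_sub, smul_sub, smul_smul, smul_smul, h2]
    have h3 : b * -b⁻¹ = -1 := by field_simp
    rw [h3]
    module
  rw [e]
  exact (hv.map (hU w₁ hw₁W)).smul (by rw [OmQ.Q_lin, P.hv]) b

include hQ hn in
/-- **`Ω` is generated by `Q_u` and `Q_v`.** -/
theorem OPair.eq_top_of_Eu_mem (P : OPair Q) (S : Subgroup (OmQ Q))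
    (hU : ∀ w hw, P.Eu hQ hn w hw ∈ S) (hV : ∀ w hw, P.swap.Eu hQ hn w hw ∈ S) : S = ⊤ := by
  have gu : Good hQ hn S P.u := P.good_u hU
  have gv : Good hQ hn S P.v := P.swap.good_u hV
  have key : ∀ x, Q x = 0 → Good hQ hn S x := by
    intro x hx
    by_cases h1 : polar Q P.u x = 0
    · by_cases h2 : polar Q P.v x = 0
      · by_cases hx0 : x = 0
        · have := gu.smul P.hu 0
          rwa [zero_smul, ← hx0] at this
        have hxW : P.InW x := ⟨h1, h2⟩
        obtain ⟨y, hy⟩ := polar_nondeg_exists hQ hx0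
        have hy' : polar Q (P.pW y) x = 1 := by
          rw [polar_comm, P.polar_pW_right hxW, polar_comm]; exact hy
        set g := P.swap.Eu hQ hn (P.pW y) (P.inW_pW y).swap with hg
        have hgx : g.lin x = x + P.v := by
          rw [hg, P.swap.Eu_inW hQ hn _ _ hxW.swap, hy', one_smul]; rfl
        have h3 : Good hQ hn S (g.lin x) := by
          apply P.good_of_not_perp hU gv (by rw [g.Q_lin, hx])
          rw [hgx, polar_add_right, h1, P.huv, zero_add]
          exact one_ne_zero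
        have h4 := h3.map (S.inv_mem (hV _ (P.inW_pW y).swap))
        rwa [← hg, OmQ.lin_inv_lin] at h4
      · exact P.swap.good_of_not_perp hV gu hx h2
    · exact P.good_of_not_perp hU gv hx h1
  rw [eq_top_iff, ← iSup_eichGroup_eq_top hQ hn]
  apply iSup_le
  rintro x X ⟨z, hz, hX⟩
  have : X = eichOm hQ hn x.1.rep z x.2 hz := Subtype.ext hX
  rw [this]
  exact key _ x.2 _ _ _

end gen

/-! ### the semilinear map -/

namespace OPair

variable {Q : QuadraticForm F V}

/-- The semilinear map built from a semisimilarity `b` of `W`. -/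
def Tm (P : OPair Q) (σ : F ≃+* F) (b : V → V) (c : F) (x : V) : V :=
  (c * σ (polar Q P.v x)) • P.u + σ (polar Q P.u x) • P.v + b (P.pW x)

/-- The data of a semisimilarity of `W`. -/
structure TData (P : OPair Q) (σ : F ≃+* F) (b : V → V) (c : F) : Prop where
  hc : c ≠ 0
  hbW : ∀ w, P.InW w → P.InW (b w)
  hadd : ∀ w w', P.InW w → P.InW w' → b (w + w') = b w + b w'
  hsmul : ∀ (μ : F) w, P.InW w → b (μ • w) = σ μ • b w
  hQ : ∀ w, P.InW w → Q (b w) = c * σ (Q w)
  hinj : ∀ w, P.InW w → b w = 0 → w = 0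

variable {P : OPair Q} {σ : F ≃+* F} {b : V → V} {c : F}

lemma TData.b_zero (D : TData P σ b c) : b 0 = 0 := by
  have := D.hadd 0 0 P.inW_zero P.inW_zero
  rw [add_zero] at this
  exact left_eq_add.1 this

lemma TData.T_add (D : TData P σ b c) (x y : V) : P.Tm σ b c (x + y) = P.Tm σ b c x + P.Tm σ b c y := by
  simp only [Tm, polar_add_right, map_add, P.pW_add, D.hadd _ _ (P.inW_pW x) (P.inW_pW y)]
  module

lemma TData.T_smul (D : TData P σ b c) (t : F) (x : V) : P.Tm σ b c (t • x) = σ t • P.Tm σ b c x := by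
  simp only [Tm, polar_smul_right, smul_eq_mul, map_mul, P.pW_smul, D.hsmul _ _ (P.inW_pW x)]
  module

lemma TData.T_Q (D : TData P σ b c) (x : V) : Q (P.Tm σ b c x) = c * σ (Q x) := by
  rw [Tm, P.Q_comp _ _ (D.hbW _ (P.inW_pW x)), D.hQ _ (P.inW_pW x)]
  conv_rhs => rw [P.decomp x, P.Q_comp _ _ (P.inW_pW x)]
  rw [map_add, map_mul]; ring

lemma TData.T_polar (D : TData P σ b c) (x y : V) :
    polar Q (P.Tm σ b c x) (P.Tm σ b c y) = c * σ (polar Q x y) := by
  simp only [polar, ← D.T_add, D.T_Q, map_sub]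
  ring

lemma TData.T_u (D : TData P σ b c) : P.Tm σ b c P.u = c • P.u := by
  rw [Tm, P.hvu, P.huu, P.pW_u, D.b_zero]; simp

lemma TData.T_v (D : TData P σ b c) : P.Tm σ b c P.v = P.v := by
  rw [Tm, P.hvv, P.huv, P.pW_v, D.b_zero]; simp

lemma TData.T_w (_D : TData P σ b c) {w : V} (hw : P.InW w) : P.Tm σ b c w = b w := by
  rw [Tm, hw.1, hw.2, P.pW_of_inW hw]; simp

lemma TData.T_inj (D : TData P σ b c) : Function.Injective (P.Tm σ b c) := by
  have h0 : ∀ x, P.Tm σ b c x = 0 → x = 0 := by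
    intro x hx
    have h1 : (c * σ (polar Q P.v x)) • P.u + σ (polar Q P.u x) • P.v + b (P.pW x)
        = (0 : F) • P.u + (0 : F) • P.v + 0 := by
      rw [zero_smul, zero_smul, add_zero, add_zero]; exact hx
    obtain ⟨e1, e2, e3⟩ := P.comp_ext (D.hbW _ (P.inW_pW x)) P.inW_zero h1
    have e1' : polar Q P.v x = 0 := by
      have := (mul_eq_zero.1 e1).resolve_left D.hc
      exact (map_eq_zero_iff σ σ.injective).1 this
    have e2' : polar Q P.u x = 0 := (map_eq_zero_iff σ σ.injective).1 e2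
    have e3' := D.hinj _ (P.inW_pW x) e3
    rw [P.decomp x, e1', e2', e3']; simp
  intro x y hxy
  have hneg : P.Tm σ b c (-y) = -P.Tm σ b c y := by
    have := D.T_smul (-1) y
    rwa [neg_smul, one_smul, map_neg, map_one, neg_smul, one_smul] at this
  have : P.Tm σ b c (x - y) = 0 := by
    rw [sub_eq_add_neg, D.T_add, hneg, hxy, add_neg_cancel]
  exact sub_eq_zero.1 (h0 _ this)

variable [Fintype F] [FiniteDimensional F V]
  {hQ : (polarBilin Q).Nondegenerate} {hn : 5 ≤ finrank F V}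

/-- `T` intertwines Eichler transformations. -/
lemma TData.intertwine (D : TData P σ b c) (a z : V) (ha : Q a = 0) (haz : polar Q a z = 0) (x : V) :
    (eichOm hQ hn (P.Tm σ b c a) (c⁻¹ • P.Tm σ b c z) (by rw [D.T_Q, ha]; simp)
      (by rw [polar_smul_right, D.T_polar, haz]; simp)).lin (P.Tm σ b c x)
      = P.Tm σ b c ((eichOm hQ hn a z ha haz).lin x) := by
  have hc := D.hc
  have hsub : ∀ p r, P.Tm σ b c (p - r) = P.Tm σ b c p - P.Tm σ b c r := by
    intro p r
    have h1 := D.T_add (p - r) r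
    rw [sub_add_cancel] at h1
    rw [h1, add_sub_cancel_right]
  rw [eichOm_lin, eichOm_lin, hsub, hsub, D.T_add, D.T_smul, D.T_smul, D.T_smul,
    polar_smul_left, D.T_polar, D.T_polar, QuadraticMap.map_smul, D.T_Q]
  simp only [smul_eq_mul, map_mul]
  have e1 : c⁻¹ * (c * σ (polar Q z x)) = σ (polar Q z x) := by field_simp
  have e2 : c⁻¹ * c⁻¹ * (c * σ (Q z)) * (c * σ (polar Q a x)) = σ (Q z) * σ (polar Q a x) := by
    field_simp
  rw [e1, e2, smul_smul]
  have e3 : c * σ (polar Q a x) * c⁻¹ = σ (polar Q a x) := by field_simp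
  rw [e3]

local notation "PG" => (OmQ Q ⧸ Subgroup.center (OmQ Q))

/-- The elements on which `β` is induced by `T`. -/
def intSub (β : PG ≃* PG) (T : V → V) : Subgroup (OmQ Q) where
  carrier := {g | ∃ g' : OmQ Q, (∀ x, g'.lin (T x) = T (g.lin x)) ∧ β (omk g) = omk g'}
  mul_mem' := by
    rintro g₁ g₂ ⟨g₁', h₁, e₁⟩ ⟨g₂', h₂, e₂⟩
    refine ⟨g₁' * g₂', fun x => ?_, by rw [omk_mul, omk_mul, map_mul, e₁, e₂]⟩
    rw [OmQ.lin_mul, OmQ.lin_mul, h₂, h₁]
  one_mem' := ⟨1, fun x => by rw [OmQ.lin_one, OmQ.lin_one], by rw [omk_one, map_one]⟩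
  inv_mem' := by
    rintro g ⟨g', h, e⟩
    refine ⟨g'⁻¹, fun x => ?_, by rw [omk_inv, omk_inv, map_inv, e]⟩
    have := h (g⁻¹.lin x)
    rw [OmQ.lin_lin_inv] at this
    rw [← this, OmQ.lin_inv_lin]

/-- **Admissible automorphisms are induced by semisimilarities.** -/
theorem OAdm.induced (h7 : 7 ≤ finrank F V) {β : PG ≃* PG} (hβ : P.OAdm hQ hn β)
    (hβ' : P.OAdm hQ hn β.symm) :
    ∃ (σ : F ≃+* F) (T : V ≃+ V) (c : F), c ≠ 0 ∧ (∀ (t : F) x, T (t • x) = σ t • T x) ∧
      (∀ x, Q (T x) = c * σ (Q x)) ∧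
      ∀ g g' : OmQ Q, (∀ x, g'.lin (T x) = T (g.lin x)) → β (omk g) = omk g' := by
  obtain ⟨σ, hσ⟩ := exists_ringEquiv h7 hβ hβ'
  obtain ⟨c, hc, hform, hψ⟩ := exists_form h7 hβ hβ' σ hσ
  have D : TData P σ (P.bmap hQ hn β) c :=
    { hc := hc
      hbW := fun w hw => bmap_inW hβ.hU hw
      hadd := fun w w' hw hw' => bmap_add hβ.hU hw hw'
      hsmul := hσ
      hQ := hform
      hinj := fun w hw h => by
        by_contra hw0
        exact bmap_ne_zero hβ.hU hβ'.hU hw hw0 h }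
  have : Finite V := Module.finite_of_finite F
  have hbij : Function.Bijective (P.Tm σ (P.bmap hQ hn β) c) :=
    Finite.injective_iff_bijective.1 D.T_inj
  let T : V ≃+ V := AddEquiv.ofBijective (AddMonoidHom.mk' (P.Tm σ (P.bmap hQ hn β) c) D.T_add) hbij
  have hT : ∀ x, T x = P.Tm σ (P.bmap hQ hn β) c x := fun x => rfl
  have htop : intSub β T = ⊤ := by
    apply P.eq_top_of_Eu_mem (hQ := hQ) (hn := hn)
    · intro w hw
      refine ⟨P.Eu hQ hn (P.bmap hQ hn β w) (bmap_inW hβ.hU hw), fun x => ?_,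
        (bmap_rel hβ.hU hw).2.2⟩
      have key := D.intertwine (hQ := hQ) (hn := hn) P.u w P.hu hw.1 x
      have hperp : polar Q P.u (c⁻¹ • P.bmap hQ hn β w) = 0 := ((bmap_inW hβ.hU hw).smul _).1
      rw [eichOm_congr hQ hn D.T_u (congrArg (fun t => c⁻¹ • t) (D.T_w hw)),
        eichOm_smul_left hQ hn P.u _ c P.hu hperp,
        eichOm_congr hQ hn rfl (show c • c⁻¹ • P.bmap hQ hn β w = P.bmap hQ hn β w by
          rw [smul_smul, mul_inv_cancel₀ hc, one_smul])] at key
      exact key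
    · intro w hw
      refine ⟨P.swap.Eu hQ hn (P.swap.bmap hQ hn β w) (bmap_inW hβ.hV hw), fun x => ?_,
        (bmap_rel hβ.hV hw).2.2⟩
      have key := D.intertwine (hQ := hQ) (hn := hn) P.v w P.hv hw.1 x
      rw [eichOm_congr hQ hn D.T_v (show c⁻¹ • P.Tm σ (P.bmap hQ hn β) c w
        = P.swap.bmap hQ hn β w by rw [hψ w hw.unswap, D.T_w hw.unswap])] at key
      exact key
  refine ⟨σ, T, c, hc, fun t x => D.T_smul t x, fun x => D.T_Q x, fun g g' hgg => ?_⟩
  have hg : g ∈ intSub β T := by rw [htop]; trivial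
  obtain ⟨g'', h1, h2⟩ := hg
  rw [h2]
  congr 1
  apply OmQ.ext
  intro y
  obtain ⟨x, rfl⟩ := T.surjective y
  rw [h1, hgg]

end OPair

end Cfsg.Agent.Lib.Helper5
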