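import Mathlib
import Cfsg.Agent.Lib.Helper5.PSUAut8
import Cfsg.Agent.Lib.Helper43.PU.Syl

set_option autoImplicit false

/-! # Automorphisms of `PSU_n(q)`, part 9: the factorisation theorem -/

namespace Cfsg.Agent.Lib.Helper5

open Matrix Module Cfsg.Agent.Lib.Helper13 Cfsg.Agent.Lib.Helper94 Cfsg.Agent.Lib.Helper94.U
  Cfsg.Agent.Lib.Helper45.SUGen Cfsg.Agent.Lib.Helper43.PU

variable {F : Type*} [Field F] [Fintype F] {q n : ℕ}

theorem permX (hF : Fintype.card F = q ^ 2) {p : ℕ} [Fact p.Prime] [CharP F p] (hn : 1 ≤ n) :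
    PermX n F q hF := by
  intro β u hu0 hu
  obtain ⟨u', hu0', hu', h⟩ := aut_utGroup (p := p) hF hn β u hu0 hu
  refine ⟨u', hu0', hu', fun c hc => ?_⟩
  have h1 : β (pmk (tSU hF u c hu hc)) ∈
      ((utGroup hF u hu).map (QuotientGroup.mk' (Subgroup.center (Cfsg.SU n F q)))).map
        β.toMonoidHom :=
    Subgroup.mem_map_of_mem _ (Subgroup.mem_map_of_mem _ ⟨c, hc, rfl⟩)
  rw [h] at h1
  obtain ⟨_, ⟨c', hc', rfl⟩, e⟩ := h1
  exact ⟨c', hc', e.symm⟩

/-- **Every automorphism of `PSU_n(q)` is the product of an inner-diagonal and a field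
automorphism.** -/
theorem fac_PSU (hF : Fintype.card F = q ^ 2) (hn : 3 ≤ n) (h32 : ¬ (n = 3 ∧ q = 2)) : Fac n F q := by
  obtain ⟨p', hp'⟩ := CharP.exists F
  have hpp : p'.Prime := (CharP.char_is_prime_or_zero F p').resolve_right (by
    intro h0
    subst h0
    have := CharP.charP_to_charZero F
    exact not_finite F)
  have : Fact p'.Prime := ⟨hpp⟩
  exact fac_of_permX (hF := hF) (p := p') hn h32 (permX hF (p := p') (by omega))

end Cfsg.Agent.Lib.Helper5
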