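import Mathlib
import Cfsg.Agent.Lib.Helper5.MinIdx0

set_option autoImplicit false

/-! Steinberg's two generators of `SL_{n+1}(K)` (S2402). -/

namespace Cfsg.Agent.Lib.Helper5.SLTwoGen

open Matrix Cfsg.Agent.Lib.Helper5.MI

variable {N : ℕ} {F : Type*} [Field F]

/-- standard basis vector -/
def e (i : Fin N) : Fin N → F := Pi.single i 1

lemma e_dot_e {i j : Fin N} (h : i ≠ j) : (e j : Fin N → F) ⬝ᵥ e i = 0 := by
  simp [e, h]

lemma e_dot_self (i : Fin N) : (e i : Fin N → F) ⬝ᵥ e i = 1 := by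
  simp [e]

lemma e_dot_smul {i j : Fin N} (h : i ≠ j) (c : F) : (e j : Fin N → F) ⬝ᵥ (c • e i) = 0 := by
  rw [dotProduct_smul, e_dot_e h, smul_zero]

lemma vecMul_inv_of (g : Matrix.SpecialLinearGroup (Fin N) F) {ψ φ : Fin N → F}
    (h : ψ ᵥ* g.1 = φ) : φ ᵥ* (g⁻¹ : Matrix.SpecialLinearGroup (Fin N) F).1 = ψ := by
  have h1 : g.1 * (g⁻¹ : Matrix.SpecialLinearGroup (Fin N) F).1 = 1 := by
    rw [← Matrix.SpecialLinearGroup.coe_mul, mul_inv_cancel, Matrix.SpecialLinearGroup.coe_one]
  rw [← h, vecMul_vecMul, h1, vecMul_one]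

/-- elementary transvection `1 + c E_{ij}` -/
noncomputable def E (i j : Fin N) (c : F) : Matrix.SpecialLinearGroup (Fin N) F :=
  T (c • e i) (e j)

lemma mono_conj (g : Matrix.SpecialLinearGroup (Fin N) F) {i i' j j' : Fin N} {a b : F}
    (hb : b ≠ 0) (h1 : g.1 *ᵥ e i = a • e i') (h2 : e j' ᵥ* g.1 = b • e j) (c : F) :
    g * E i j c * g⁻¹ = E i' j' (c * a * b⁻¹) := by
  have h3 : (e j : Fin N → F) ᵥ* (g⁻¹ : Matrix.SpecialLinearGroup (Fin N) F).1 = b⁻¹ • e j' := by
    apply vecMul_inv_of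
    rw [smul_vecMul, h2, smul_smul, inv_mul_cancel₀ hb, one_smul]
  unfold E
  rw [T_conj, mulVec_smul, h1, h3, ← T_smul, smul_smul, smul_smul]
  congr 2
  ring

lemma diag_conj (g : Matrix.SpecialLinearGroup (Fin N) F) (d : Fin N → F)
    (hg : g.1 = diagonal d) (i j : Fin N) (hd : d j ≠ 0) (c : F) :
    g * E i j c * g⁻¹ = E i j (c * d i * (d j)⁻¹) := by
  apply mono_conj g hd
  · rw [hg]; ext a
    simp only [e, mulVec_diagonal, Pi.smul_apply, smul_eq_mul, Pi.single_apply]
    split_ifs with h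
    · rw [h]
    · simp
  · rw [hg]; ext a
    simp only [e, vecMul_diagonal, Pi.smul_apply, smul_eq_mul, Pi.single_apply]
    split_ifs with h
    · rw [h]; ring
    · simp

lemma E_mul {i j : Fin N} (h : i ≠ j) (a b : F) : E i j a * E i j b = E i j (a + b) := by
  unfold E
  rw [T_add_left (e_dot_smul h a) (e_dot_smul h b), add_smul]

lemma E_zero (i j : Fin N) : E i j (0 : F) = 1 := by
  unfold E
  rw [zero_smul, T_zero_left]

lemma E_inv {i j : Fin N} (h : i ≠ j) (a : F) : (E i j a)⁻¹ = E i j (-a) := by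
  unfold E
  rw [T_inv (e_dot_smul h a), neg_smul]

lemma E_comm {i j l : Fin N} (hij : i ≠ j) (hjl : j ≠ l) (hil : i ≠ l) (c : F) :
    E i j c * E j l 1 * (E i j c)⁻¹ * (E j l 1)⁻¹ = E i l c := by
  unfold E
  rw [T_comm (e_dot_smul hij c) (e_dot_smul hjl 1) (e_dot_smul hil c), dotProduct_smul,
    e_dot_self, smul_smul]
  simp

lemma E_coe {i j : Fin N} (hij : i ≠ j) (c : F) :
    (E i j c : Matrix (Fin N) (Fin N) F) = Matrix.transvection i j c := by
  unfold E
  rw [T_coe (e_dot_smul hij c), Matrix.transvection]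
  congr 1
  ext a b
  simp only [single_apply, vecMulVec_apply, e, Pi.single_apply, Pi.smul_apply, smul_eq_mul]
  by_cases ha : a = i <;> by_cases hb : b = j
  · simp [ha, hb]
  · simp [ha, hb, Ne.symm hb]
  · simp [ha, hb, Ne.symm ha]
  · simp [ha, hb, Ne.symm ha]

/-- a subgroup containing all elementary transvections is everything -/
lemma eq_top_of_E (hN : 2 ≤ N) (H : Subgroup (Matrix.SpecialLinearGroup (Fin N) F))
    (hH : ∀ i j : Fin N, i ≠ j → ∀ c : F, E i j c ∈ H) : H = ⊤ := by
  have : Nontrivial (Fin N) := Fin.nontrivial_iff_two_le.2 hN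
  refine eq_top_iff.2 (fun A _ => ?_)
  refine Cfsg.Agent.Lib.Helper5.SL_transvection_induction (fun A => A ∈ H) (fun i j hij c => ?_)
    (fun _ _ => H.mul_mem) A
  have : Matrix.SpecialLinearGroup.transvection hij c = E i j c := by
    apply sl_ext
    rw [E_coe hij, Matrix.SpecialLinearGroup.transvection_coe, Matrix.transvection]
  rw [this]
  exact hH i j hij c

lemma exists_sq_add_sq [Fintype F] (z : F) : ∃ a b : F, a ^ 2 + b ^ 2 = z := by
  classical
  by_cases h2 : ringChar F = 2
  · obtain ⟨a, ha⟩ := FiniteField.isSquare_of_char_two h2 z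
    exact ⟨a, 0, by rw [ha]; ring⟩
  · have hodd : Fintype.card F % 2 = 1 := FiniteField.odd_card_of_char_ne_two h2
    let f : Polynomial F := Polynomial.X ^ 2
    let g : Polynomial F := Polynomial.X ^ 2 - Polynomial.C z
    obtain ⟨a, b, hab⟩ : ∃ a b, f.eval a + g.eval b = 0 :=
      FiniteField.exists_root_sum_quadratic (Polynomial.degree_X_pow 2)
        (Polynomial.degree_X_pow_sub_C (by decide) _) hodd
    refine ⟨a, b, ?_⟩
    rw [← sub_eq_zero]
    simpa only [f, g, Polynomial.eval_C, Polynomial.eval_X, Polynomial.eval_pow,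
      Polynomial.eval_sub, ← add_sub_assoc] using hab

/-- cyclic propagation: from `E 0 1 c ∈ H` and a cyclic monomial `w ∈ H`, all `E i j c ∈ H`. -/
lemma all_E_of_cyclic {m : ℕ} (H : Subgroup (Matrix.SpecialLinearGroup (Fin (m + 2)) F))
    (w : Matrix.SpecialLinearGroup (Fin (m + 2)) F) (hwH : w ∈ H) (s : Fin (m + 2) → F)
    (hs : ∀ i, s i ≠ 0)
    (hw : ∀ i j, w.1 i j = if j = i + 1 then s i else 0)
    (h01 : ∀ c : F, E (0 : Fin (m + 2)) 1 c ∈ H) :
    ∀ i j : Fin (m + 2), i ≠ j → ∀ c : F, E i j c ∈ H := by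
  have hcol : ∀ i, w.1 *ᵥ e (i + 1) = s i • e i := by
    intro i
    ext a
    simp only [e, mulVec_single_one, col_apply, hw, Pi.smul_apply, smul_eq_mul, Pi.single_apply,
      add_left_inj]
    by_cases h : i = a
    · subst h; simp
    · simp [h, Ne.symm h]
  have hrow : ∀ i, e i ᵥ* w.1 = s i • e (i + 1) := by
    intro i
    ext a
    simp only [e, single_one_vecMul, row_apply, hw, Pi.smul_apply, smul_eq_mul, Pi.single_apply]
    by_cases h : a = i + 1
    · simp [h]
    · simp [h]
  -- shifting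
  have hshift : ∀ i j : Fin (m + 2), (∀ c : F, E (i + 1) (j + 1) c ∈ H) → ∀ c : F, E i j c ∈ H := by
    intro i j hP c
    have h1 := mono_conj w (hs j) (hcol i) (hrow j) (c * (s i)⁻¹ * s j)
    have h2 : c * (s i)⁻¹ * s j * s i * (s j)⁻¹ = c := by
      field_simp [hs i, hs j]
    rw [h2] at h1
    rw [← h1]
    exact H.mul_mem (H.mul_mem hwH (hP _)) (H.inv_mem hwH)
  have hshift' : ∀ a i j : Fin (m + 2), (∀ c : F, E (i + a) (j + a) c ∈ H) →
      ∀ c : F, E i j c ∈ H := by
    intro a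
    induction a using Fin.induction with
    | zero => intro i j h; simpa using h
    | succ a ih =>
      intro i j h
      apply ih
      apply hshift
      rw [← Fin.coeSucc_eq_succ] at h
      simpa [add_assoc] using h
  have hQ1 : ∀ i : Fin (m + 2), ∀ c : F, E i (i + 1) c ∈ H := by
    intro i
    apply hshift' (-i)
    simpa [add_comm, add_assoc, add_left_comm] using h01
  have hQ : ∀ a : Fin (m + 2), a ≠ 0 → ∀ i : Fin (m + 2), ∀ c : F, E i (i + a) c ∈ H := by
    intro a
    induction a using Fin.induction with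
    | zero => intro h; exact absurd rfl h
    | succ a ih =>
      intro h i c
      rw [← Fin.coeSucc_eq_succ] at h ⊢
      by_cases ha : a.castSucc = 0
      · rw [ha, zero_add]; exact hQ1 i c
      · have h1 : i ≠ i + a.castSucc := by
          intro h'; exact ha (by simpa using h'.symm)
        have h2 : i + a.castSucc ≠ i + (a.castSucc + 1) := by
          intro h'
          have : (1 : Fin (m + 2)) = 0 := by
            have h4 := add_left_cancel h'
            exact add_left_cancel (a := a.castSucc) (by rw [add_zero]; exact h4.symm)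
          exact absurd this (by simp)
        have h3 : i ≠ i + (a.castSucc + 1) := by
          intro h'; exact h (by simpa using h'.symm)
        rw [← E_comm h1 h2 h3 c]
        have hA := ih ha i c
        have hB : E (i + a.castSucc) (i + (a.castSucc + 1)) (1 : F) ∈ H := by
          rw [← add_assoc]; exact hQ1 _ 1
        exact H.mul_mem (H.mul_mem (H.mul_mem hA hB) (H.inv_mem hA)) (H.inv_mem hB)
  intro i j hij c
  have := hQ (j - i) (sub_ne_zero.2 (Ne.symm hij)) i c
  simpa using this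

theorem two_gen {K : Type*} [Field K] [Fintype K] (hK : 3 < Fintype.card K) (m : ℕ)
    (k : Kˣ) (hk : ∀ u : Kˣ, u ∈ Subgroup.zpowers k)
    (h x w : Matrix.SpecialLinearGroup (Fin (m + 2)) K)
    (hh : (h : Matrix (Fin (m + 2)) (Fin (m + 2)) K) =
      Matrix.diagonal (fun i => if i.val = 0 then (k : K) else
        if i.val = 1 then ((k⁻¹ : Kˣ) : K) else 1))
    (hx : (x : Matrix (Fin (m + 2)) (Fin (m + 2)) K) =
      Matrix.transvection (0 : Fin (m + 2)) (1 : Fin (m + 2)) 1)
    (hw : (w : Matrix (Fin (m + 2)) (Fin (m + 2)) K) =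
      Matrix.of (fun i j => if j.val = i.val + 1 then 1 else
        if i.val = m + 1 ∧ j.val = 0 then (-1) ^ (m + 1) else 0)) :
    Subgroup.closure ({h, x * w} : Set (Matrix.SpecialLinearGroup (Fin (m + 2)) K)) = ⊤ := by
  classical
  set H := Subgroup.closure ({h, x * w} : Set (Matrix.SpecialLinearGroup (Fin (m + 2)) K)) with hH
  have hhH : h ∈ H := Subgroup.subset_closure (by simp)
  have hgH : x * w ∈ H := Subgroup.subset_closure (by simp)
  set d : Fin (m + 2) → K := fun i => if i.val = 0 then (k : K) else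
        if i.val = 1 then ((k⁻¹ : Kˣ) : K) else 1 with hd
  have hd0 : ∀ i, d i ≠ 0 := by
    intro i; simp only [hd]; split_ifs <;> simp
  let s : Fin (m + 2) → K := fun i => if i = Fin.last _ then (-1) ^ (m + 1) else 1
  have hs : ∀ i, s i ≠ 0 := by
    intro i; simp only [s]; split_ifs <;> simp
  have h01 : (0 : Fin (m + 2)) ≠ 1 := by simp
  have hw' : ∀ i j, w.1 i j = if j = i + 1 then s i else 0 := by
    intro i j
    have hw2 : w.1 = (w : Matrix (Fin (m + 2)) (Fin (m + 2)) K) := rfl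
    rw [hw2, hw, of_apply]
    have hv := Fin.val_add_one i
    have hi2 := i.2
    have hj2 := j.2
    by_cases hi : i = Fin.last _
    · rw [if_pos hi] at hv
      have hiv : i.val = m + 1 := by rw [hi]; simp
      simp only [s, Fin.ext_iff, hv, hiv]
      by_cases hj : j.val = 0
      · simp [hj]
      · have : ¬ j.val = m + 1 + 1 := by omega
        simp [hj, this]
    · rw [if_neg hi] at hv
      have hiv : i.val ≠ m + 1 := by
        intro h'; exact hi (Fin.ext (by rw [h']; simp))
      simp only [s, Fin.ext_iff, hv]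
      simp [hiv]
  have hxE : x = E 0 1 1 := sl_ext (by rw [hx, E_coe h01])
  -- facts on k
  have hk2 : (k : K) * k ≠ 1 := by
    intro h1
    have h2 : k ^ 2 = 1 := by
      apply Units.ext; rw [pow_two]; exact h1
    have h3 := orderOf_eq_card_of_forall_mem_zpowers hk
    rw [Nat.card_eq_fintype_card, Fintype.card_units] at h3
    have h4 := Nat.le_of_dvd (by norm_num) (orderOf_dvd_of_pow_eq_one h2)
    omega
  have hk1 : (k : K) ≠ 1 := by
    intro h1; apply hk2; rw [h1, mul_one]
  have hk0 : (k : K) ≠ 0 := k.ne_zero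
  -- h'
  set h' := w * h * w⁻¹ with hh'
  have hh'c : h'.1 = diagonal (fun i => d (i + 1)) := by
    have h1 : w.1 * diagonal d = diagonal (fun i => d (i + 1)) * w.1 := by
      ext i j
      rw [mul_diagonal, diagonal_mul, hw']
      split_ifs with hj
      · rw [hj]; ring
      · simp
    have h2 : w.1 * (w⁻¹ : Matrix.SpecialLinearGroup (Fin (m + 2)) K).1 = 1 := by
      rw [← Matrix.SpecialLinearGroup.coe_mul, mul_inv_cancel, Matrix.SpecialLinearGroup.coe_one]
    have h3 : h'.1 = w.1 * h.1 * (w⁻¹ : Matrix.SpecialLinearGroup (Fin (m + 2)) K).1 := by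
      rw [hh', Matrix.SpecialLinearGroup.coe_mul, Matrix.SpecialLinearGroup.coe_mul]
    have h4 : h.1 = diagonal d := hh
    rw [h3, h4, h1, mul_assoc, h2, mul_one]
  have hcomm : h' * h = h * h' := by
    apply sl_ext
    have h4 : h.1 = diagonal d := hh
    rw [Matrix.SpecialLinearGroup.coe_mul, Matrix.SpecialLinearGroup.coe_mul]
    change h'.1 * h.1 = h.1 * h'.1
    rw [hh'c, h4, diagonal_mul_diagonal, diagonal_mul_diagonal]
    congr 1; ext i; ring
  have hy : x * h' * x⁻¹ ∈ H := by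
    have : x * h' * x⁻¹ = (x * w) * h * (x * w)⁻¹ := by rw [hh']; group
    rw [this]; exact H.mul_mem (H.mul_mem hgH hhH) (H.inv_mem hgH)
  set a : K := d (0 + 1) * (d (1 + 1))⁻¹ with ha
  have ht : x * h' * x⁻¹ = E 0 1 (1 - a) * h' := by
    have h1 := diag_conj h' _ hh'c 0 1 (hd0 _) (-1)
    have h2 : x * h' * x⁻¹ = x * (h' * x⁻¹ * h'⁻¹) * h' := by group
    rw [h2, hxE, E_inv h01, h1, E_mul h01]
    congr 2; rw [ha]; ring
  have hdv0 : d 0 = k := by simp [hd]
  have hdv1 : d 1 = (k : K)⁻¹ := by simp [hd]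
  have hconj : ∀ c : K, h * E 0 1 c * h⁻¹ = E 0 1 (c * (k * k)) := by
    intro c
    rw [diag_conj h d hh 0 1 (hd0 _) c, hdv0, hdv1, inv_inv, mul_assoc]
  have hc : E 0 1 ((1 - a) * (1 - k * k)) ∈ H := by
    have h1 : E 0 1 (1 - a) * h * (E 0 1 (1 - a))⁻¹ * h⁻¹ =
        (E 0 1 (1 - a) * h') * h * (E 0 1 (1 - a) * h')⁻¹ * h⁻¹ := by
      have h2 : h' * h * h'⁻¹ = h := by rw [hcomm]; group
      calc E 0 1 (1 - a) * h * (E 0 1 (1 - a))⁻¹ * h⁻¹
          = E 0 1 (1 - a) * (h' * h * h'⁻¹) * (E 0 1 (1 - a))⁻¹ * h⁻¹ := by rw [h2]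
        _ = _ := by group
    have h3 : E 0 1 (1 - a) * h * (E 0 1 (1 - a))⁻¹ * h⁻¹ = E 0 1 ((1 - a) * (1 - k * k)) := by
      have h4 : E 0 1 (1 - a) * h * (E 0 1 (1 - a))⁻¹ * h⁻¹ =
          E 0 1 (1 - a) * (h * (E 0 1 (1 - a))⁻¹ * h⁻¹) := by group
      rw [h4, E_inv h01, hconj, E_mul h01]
      congr 1; ring
    rw [← h3, h1, ← ht]
    exact H.mul_mem (H.mul_mem (H.mul_mem hy hhH) (H.inv_mem hy)) (H.inv_mem hhH)
  have ha1 : 1 - a ≠ 0 := by
    rw [ha, zero_add, hdv1]
    have h2 : d (1 + 1) = if m = 0 then (k : K) else 1 := by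
      rcases m with _ | m
      · simp [hd]
      · have : ((1 + 1 : Fin (m + 1 + 2))).val = 2 := by
          rw [Fin.val_add_one]
          rw [if_neg (by simp [Fin.ext_iff])]
          simp
        simp only [hd, this]
        simp
    rw [h2]
    split_ifs
    · intro h3
      apply hk2
      field_simp at h3
      linear_combination h3
    · intro h3
      apply hk1
      field_simp at h3
      linear_combination h3
  set c0 : K := (1 - a) * (1 - k * k) with hc0
  have hc0ne : c0 ≠ 0 := mul_ne_zero ha1 (sub_ne_zero.2 (Ne.symm hk2))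
  -- closure properties
  have hpow : ∀ j : ℕ, ∀ c : K, E 0 1 c ∈ H → E 0 1 (c * ((k : K) ^ j) ^ 2) ∈ H := by
    intro j
    induction j with
    | zero => intro c hc; simpa using hc
    | succ j ih =>
      intro c hc
      have h1 := ih c hc
      have h2 : E 0 1 (c * ((k : K) ^ j) ^ 2 * (k * k)) ∈ H := by
        rw [← hconj]; exact H.mul_mem (H.mul_mem hhH h1) (H.inv_mem hhH)
      have h3 : c * ((k : K) ^ (j + 1)) ^ 2 = c * ((k : K) ^ j) ^ 2 * (k * k) := by ring
      rw [h3]; exact h2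
  have hsq : ∀ u c : K, E 0 1 c ∈ H → E 0 1 (c * u ^ 2) ∈ H := by
    intro u c hc
    by_cases hu : u = 0
    · subst hu
      have : c * (0 : K) ^ 2 = 0 := by ring
      rw [this, E_zero]; exact H.one_mem
    · have h1 := hk (Units.mk0 u hu)
      rw [← mem_powers_iff_mem_zpowers] at h1
      obtain ⟨j, hj⟩ := h1
      have h2 : (k : K) ^ j = u := by
        have := congrArg (fun z : Kˣ => (z : K)) hj
        simpa using this
      rw [← h2]; exact hpow j c hc
  have hall : ∀ c : K, E (0 : Fin (m + 2)) 1 c ∈ H := by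
    intro c
    obtain ⟨p, q, hpq⟩ := exists_sq_add_sq (c0⁻¹ * c)
    have h1 : c = c0 * p ^ 2 + c0 * q ^ 2 := by
      rw [← mul_add, hpq, mul_inv_cancel_left₀ hc0ne]
    rw [h1, ← E_mul h01]
    exact H.mul_mem (hsq p c0 hc) (hsq q c0 hc)
  have hwH : w ∈ H := by
    have h1 : w = x⁻¹ * (x * w) := by group
    rw [h1]
    exact H.mul_mem (H.inv_mem (by rw [hxE]; exact hall 1)) hgH
  exact eq_top_of_E (by omega) H (all_E_of_cyclic H w hwH s hs hw' hall)

end Cfsg.Agent.Lib.Helper5.SLTwoGen
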