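import Mathlib
import Cfsg.Agent.Lib.Helper5.SUCenter

set_option autoImplicit false

namespace Cfsg.Agent.Lib.Helper5

open Matrix Cfsg.Agent.Lib.Helper13

variable {F : Type*} [Field F] [Fintype F] {q : ℕ}

omit [Fintype F] in
lemma transpose_mul_skew_mul (M : Matrix (Fin 2) (Fin 2) F) (ε : F) :
    Mᵀ * !![0, ε; -ε, 0] * M = M.det • !![0, ε; -ε, 0] := by
  ext i j
  fin_cases i <;> fin_cases j <;>
    simp [Matrix.mul_apply, Fin.sum_univ_two, Matrix.det_fin_two] <;> ring

/-- A change of basis from the standard Hermitian form to a skew-Hermitian hyperbolic one. -/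
lemma exists_hyperbolic_basis (hF : Fintype.card F = q ^ 2) :
    ∃ (P : Matrix (Fin 2) (Fin 2) F) (ε : F), IsUnit P.det ∧
      Pᵀ * P.map (· ^ q) = !![0, ε; -ε, 0] := by
  have hq := two_le_of_card_sq hF
  obtain ⟨x, hx⟩ : ∃ x : F, x ^ q ≠ x := by
    by_contra hcon
    push Not at hcon
    apply frobQ_ne_id hF
    ext y
    exact hcon y
  set ε := x - x ^ q with hε
  have hε0 : ε ≠ 0 := by
    intro h
    exact hx (sub_eq_zero.1 h).symm
  have hεq : ε ^ q = -ε := by
    rw [hε, sub_pow_q hF, pow_q_pow_q hF]; ring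
  have hcard := Cfsg.Agent.S0754.result hF (-1) (neg_ne_zero.2 one_ne_zero)
    (by rw [neg_pow_q hF, one_pow])
  have hnt : Nontrivial {y : F // y ^ (q + 1) = -1} := by
    rw [← Finite.one_lt_card_iff_nontrivial, hcard]; omega
  obtain ⟨⟨l, hl⟩, ⟨m, hm⟩, hlm⟩ := hnt
  have hlm' : l ≠ m := fun h => hlm (Subtype.ext h)
  have hl0 : l ≠ 0 := by
    rintro rfl
    rw [zero_pow (by omega)] at hl
    exact one_ne_zero (neg_eq_zero.1 hl.symm)
  set c0 := 1 + l * m ^ q with hc0
  have hc00 : c0 ≠ 0 := by
    intro h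
    apply hlm'
    have h1 : l * m ^ q = l * l ^ q := by
      rw [← pow_succ' l q, hl]
      linear_combination h
    have h2 := mul_left_cancel₀ hl0 h1
    rw [← pow_q_pow_q hF l, ← pow_q_pow_q hF m, h2]
  set t := (ε / c0) ^ q with ht
  have htq : t ^ q = ε / c0 := by rw [ht, pow_q_pow_q hF]
  have ht0 : t ≠ 0 := by
    rw [ht]
    exact pow_ne_zero _ (div_ne_zero hε0 hc00)
  have hc0q : c0 ^ q = 1 + m * l ^ q := by
    rw [hc0, add_pow_q hF, one_pow, mul_pow, pow_q_pow_q hF]; ring
  refine ⟨!![1, t; l, t * m], ε, ?_, ?_⟩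
  · rw [Matrix.det_fin_two_of, isUnit_iff_ne_zero]
    have : 1 * (t * m) - t * l = t * (m - l) := by ring
    rw [this]
    exact mul_ne_zero ht0 (sub_ne_zero.2 hlm'.symm)
  · have e11 : 1 + l * l ^ q = 0 := by rw [← pow_succ' l q, hl]; ring
    have e22 : 1 + m * m ^ q = 0 := by rw [← pow_succ' m q, hm]; ring
    have e12 : t ^ q * c0 = ε := by rw [htq, div_mul_cancel₀ _ hc00]
    have e21 : t * c0 ^ q = -ε := by
      rw [← hεq, ← e12, mul_pow, pow_q_pow_q hF]
    ext i j
    fin_cases i <;> fin_cases j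
    · simp [Matrix.mul_apply, Fin.sum_univ_two]
      linear_combination e11
    · simp [Matrix.mul_apply, Fin.sum_univ_two, mul_pow]
      rw [← e12, hc0]; ring
    · simp [Matrix.mul_apply, Fin.sum_univ_two]
      rw [← e21, hc0q]; ring
    · simp [Matrix.mul_apply, Fin.sum_univ_two, mul_pow]
      linear_combination (t * t ^ q) * e22

/-- `SU_2(q) ≅ SL_2(q)`. -/
theorem su_two_equiv_sl_two {K : Type*} [Field K] [Fintype K] (hF : Fintype.card F = q ^ 2)
    (hK : Fintype.card K = q) :
    Nonempty (Cfsg.SU 2 F q ≃* Matrix.SpecialLinearGroup (Fin 2) K) := by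
  have hq := two_le_of_card_sq hF
  obtain ⟨L, _, _, f, hL⟩ := exists_quadratic_extension K
  let e : L ≃+* F := FiniteField.ringEquivOfCardEq (by rw [hL, hK, hF])
  let i : K →+* F := e.toRingHom.comp f
  have hi : ∀ k, (i k) ^ q = i k := by
    intro k
    rw [← map_pow, ← hK, FiniteField.pow_card]
  obtain ⟨P, ε, hP, hG⟩ := exists_hyperbolic_basis hF
  have hPP : P * P⁻¹ = 1 := Matrix.mul_nonsing_inv P hP
  have hPP' : P⁻¹ * P = 1 := Matrix.nonsing_inv_mul P hP
  have hbar : ∀ M N : Matrix (Fin 2) (Fin 2) F,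
      (M * N).map (· ^ q) = M.map (· ^ q) * N.map (· ^ q) := by
    intro M N
    exact Matrix.map_mul (f := frobQ hF)
  have hbar1 : (1 : Matrix (Fin 2) (Fin 2) F).map (· ^ q) = 1 :=
    Matrix.map_one (frobQ hF) (map_zero _) (map_one _)
  let Φ : Matrix.SpecialLinearGroup (Fin 2) K →* Cfsg.SU 2 F q :=
    { toFun := fun g => mkSU (P * (Matrix.SpecialLinearGroup.map i g).1 * P⁻¹)
        (by
          rw [Matrix.det_mul, Matrix.det_mul, (Matrix.SpecialLinearGroup.map i g).2, mul_one,
            ← Matrix.det_mul, hPP, Matrix.det_one])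
        ((preserves_hermForm_iff hF _).2 (by
          set s := (Matrix.SpecialLinearGroup.map i g).1 with hs
          have hsbar : s.map (· ^ q) = s := by
            ext a b
            simp only [Matrix.map_apply, hs]
            exact hi _
          have hsdet : s.det = 1 := (Matrix.SpecialLinearGroup.map i g).2
          rw [hbar, hbar, hsbar, Matrix.transpose_mul, Matrix.transpose_mul]
          calc (P⁻¹)ᵀ * (sᵀ * Pᵀ) * (P.map (· ^ q) * s * (P⁻¹).map (· ^ q))
              = (P⁻¹)ᵀ * (sᵀ * (Pᵀ * P.map (· ^ q)) * s) * (P⁻¹).map (· ^ q) := by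
                simp only [Matrix.mul_assoc]
            _ = (P⁻¹)ᵀ * (Pᵀ * P.map (· ^ q)) * (P⁻¹).map (· ^ q) := by
                rw [hG, transpose_mul_skew_mul, hsdet, one_smul]
            _ = (P * P⁻¹)ᵀ * (P * P⁻¹).map (· ^ q) := by
                rw [hbar, Matrix.transpose_mul]
                simp only [Matrix.mul_assoc]
            _ = 1 := by rw [hPP, hbar1, Matrix.transpose_one, Matrix.one_mul]))
      map_one' := by
        apply SU_ext
        change P * (Matrix.SpecialLinearGroup.map i 1).1 * P⁻¹ = 1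
        rw [map_one]
        change P * 1 * P⁻¹ = 1
        rw [Matrix.mul_one, hPP]
      map_mul' := fun g h => by
        apply SU_ext
        change P * (Matrix.SpecialLinearGroup.map i (g * h)).1 * P⁻¹
          = (P * (Matrix.SpecialLinearGroup.map i g).1 * P⁻¹)
            * (P * (Matrix.SpecialLinearGroup.map i h).1 * P⁻¹)
        rw [map_mul]
        change P * ((Matrix.SpecialLinearGroup.map i g).1 * (Matrix.SpecialLinearGroup.map i h).1) * P⁻¹
          = _
        calc P * ((Matrix.SpecialLinearGroup.map i g).1 * (Matrix.SpecialLinearGroup.map i h).1) * P⁻¹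
            = P * (Matrix.SpecialLinearGroup.map i g).1 * 1
              * (Matrix.SpecialLinearGroup.map i h).1 * P⁻¹ := by
              simp only [Matrix.mul_assoc, Matrix.one_mul]
          _ = _ := by
              rw [← hPP']
              simp only [Matrix.mul_assoc] }
  have hinj : Function.Injective Φ := by
    intro g h hgh
    have h1 : P * (Matrix.SpecialLinearGroup.map i g).1 * P⁻¹
        = P * (Matrix.SpecialLinearGroup.map i h).1 * P⁻¹ :=
      congrArg (fun s : Cfsg.SU 2 F q => s.1.1) hgh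
    have h2 : (Matrix.SpecialLinearGroup.map i g).1 = (Matrix.SpecialLinearGroup.map i h).1 := by
      have := congrArg (fun M => P⁻¹ * M * P) h1
      simp only [Matrix.mul_assoc, hPP', Matrix.mul_one] at this
      simp only [← Matrix.mul_assoc, hPP', Matrix.one_mul] at this
      exact this
    exact SL_map_injective i i.injective (Subtype.ext h2)
  have hcard : Nat.card (Matrix.SpecialLinearGroup (Fin 2) K) = Nat.card (Cfsg.SU 2 F q) := by
    have h1 := card_SU_mul (n := 2) hF (by norm_num)
    rw [card_GU hF 2] at h1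
    simp [Finset.prod_range_succ] at h1
    rw [card_SL2, hK]
    have h2 : (q + 1) * Nat.card (Cfsg.SU 2 F q) = (q + 1) * (q * (q ^ 2 - 1)) := by
      rw [h1]; ring
    exact (Nat.eq_of_mul_eq_mul_left (by omega) h2).symm
  have hfin : Finite (Cfsg.SU 2 F q) := inferInstance
  have hbij : Function.Bijective Φ :=
    (Nat.bijective_iff_injective_and_card Φ).2 ⟨hinj, hcard⟩
  exact ⟨(MulEquiv.ofBijective Φ hbij).symm⟩

end Cfsg.Agent.Lib.Helper5
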