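import Mathlib
import Cfsg.Agent.Lib.Helper5.SpParabolic

set_option autoImplicit false

namespace Cfsg.Agent.Lib.Helper5

open Matrix Module Cfsg.Agent.Lib.Helper13 Cfsg.Agent.Lib.Helper94

variable {F : Type*} [Field F]

/-- The members of the standard isotropic flag. -/
def flagSub (m : ℕ) (F : Type*) [Field F] (k : Fin m) : Submodule F (Fin m ⊕ Fin m → F) where
  carrier := {v | (∀ i : Fin m, (k : ℕ) < (i : ℕ) → v (Sum.inl i) = 0) ∧ ∀ i : Fin m, v (Sum.inr i) = 0}
  add_mem' := by
    rintro u v ⟨hu1, hu2⟩ ⟨hv1, hv2⟩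
    exact ⟨fun i hi => by simp [hu1 i hi, hv1 i hi], fun i => by simp [hu2 i, hv2 i]⟩
  zero_mem' := ⟨fun _ _ => rfl, fun _ => rfl⟩
  smul_mem' := by
    rintro c v ⟨hv1, hv2⟩
    exact ⟨fun i hi => by simp [hv1 i hi], fun i => by simp [hv2 i]⟩

/-- triangular frames -/
def triFrames (m : ℕ) (F : Type*) [Field F] : Set (Fin m → Fin m ⊕ Fin m → F) :=
  {f | ∀ i, f i ∈ flagSub m F i ∧ f i (Sum.inl i) ≠ 0}

lemma triFrames_linearIndependent (m : ℕ) (f : Fin m → Fin m ⊕ Fin m → F) (hf : f ∈ triFrames m F) :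
    LinearIndependent F f := by
  classical
  rw [Fintype.linearIndependent_iff]
  intro c hc
  by_contra hcon
  push Not at hcon
  have hne : (Finset.univ.filter (fun i => c i ≠ 0)).Nonempty := by
    obtain ⟨i, hi⟩ := hcon
    exact ⟨i, by simp [hi]⟩
  obtain ⟨i, hi, hmax⟩ := Finset.exists_max_image _ (fun i : Fin m => i) hne
  have hci : c i ≠ 0 := (Finset.mem_filter.1 hi).2
  have h1 := congrFun hc (Sum.inl i)
  rw [Finset.sum_apply, Finset.sum_eq_single i] at h1
  · simp only [Pi.smul_apply, smul_eq_mul, Pi.zero_apply] at h1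
    exact (mul_ne_zero hci (hf i).2) h1
  · intro j _ hji
    simp only [Pi.smul_apply, smul_eq_mul]
    rcases lt_or_gt_of_ne hji with h | h
    · rw [(hf j).1.1 i h, mul_zero]
    · have : c j = 0 := by
        by_contra hcj
        have := hmax j (by simp [hcj])
        exact absurd h (not_lt.2 this)
      rw [this, zero_mul]
  · intro h; exact absurd (Finset.mem_univ i) h

lemma triFrames_subset (m : ℕ) : triFrames m F ⊆ tiFrames (sympB m F) m := by
  intro f hf
  refine ⟨triFrames_linearIndependent m f hf, fun i j => ?_⟩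
  rw [sympB_apply, sympForm_eq_sum]
  apply Finset.sum_eq_zero
  intro l _
  rw [(hf i).1.2 l, (hf j).1.2 l]; ring

lemma flagSub_mono (m : ℕ) {i k : Fin m} (h : i ≤ k) : flagSub m F i ≤ flagSub m F k := by
  rintro v ⟨h1, h2⟩
  exact ⟨fun j hj => h1 j (lt_of_le_of_lt h hj), h2⟩

lemma mem_iInf_flag_iff (m : ℕ) (A : Matrix.symplecticGroup (Fin m) F) :
    A ∈ (⨅ k : Fin m, Cfsg.stabilizing (Cfsg.spToMat m F) (flagSub m F k : Set (Fin m ⊕ Fin m → F))) ↔
      (fun i : Fin m => Cfsg.spToMat m F A *ᵥ (Pi.single (Sum.inl i) (1 : F))) ∈ triFrames m F := by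
  classical
  rw [Subgroup.mem_iInf]
  constructor
  · intro h i
    have hei : (Pi.single (Sum.inl i) (1 : F) : Fin m ⊕ Fin m → F) ∈ flagSub m F i := by
      refine ⟨fun j hj => ?_, fun j => by simp⟩
      rw [Pi.single_apply, if_neg]
      intro h'
      have : j = i := Sum.inl.inj h'
      omega
    have h1 : Cfsg.spToMat m F A *ᵥ (Pi.single (Sum.inl i) (1 : F)) ∈ flagSub m F i := (h i _).1 hei
    refine ⟨h1, fun h0 => ?_⟩
    rcases Nat.eq_zero_or_pos (i : ℕ) with hi0 | hipos
    · -- the image vanishes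
      have hz : actL (Cfsg.spToMat m F) A (Pi.single (Sum.inl i) (1 : F)) = 0 := by
        funext j
        rcases j with j | j
        · by_cases hj : j = i
          · rw [hj]; exact h0
          · apply h1.1 j
            have : (j : ℕ) ≠ (i : ℕ) := fun h => hj (Fin.ext h)
            omega
        · exact h1.2 j
      have := (actL (Cfsg.spToMat m F) A).map_eq_zero_iff.1 hz
      have h2 := congrFun this (Sum.inl i)
      simp at h2
    · let j : Fin m := ⟨(i : ℕ) - 1, by have := i.2; omega⟩
      have h2 : Cfsg.spToMat m F A *ᵥ (Pi.single (Sum.inl i) (1 : F)) ∈ flagSub m F j := by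
        refine ⟨fun l hl => ?_, h1.2⟩
        by_cases hli : l = i
        · rw [hli]; exact h0
        · apply h1.1 l
          have : (l : ℕ) ≠ (i : ℕ) := fun h => hli (Fin.ext h)
          have hj : (j : ℕ) = (i : ℕ) - 1 := rfl
          omega
      have h3 := ((h j _).2 h2).1 i (by
        have hj : (j : ℕ) = (i : ℕ) - 1 := rfl
        omega)
      simp at h3
  · intro h k
    have key := mem_iff_of_forall_mem (actL (Cfsg.spToMat m F) A) (flagSub m F k) (by
      intro w hw
      rw [actL_apply, Matrix.mulVec_eq_sum]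
      apply Submodule.sum_mem
      intro j _
      rcases j with j | j
      · by_cases hj : (k : ℕ) < (j : ℕ)
        · rw [hw.1 j hj]; simp
        · have h1 : Cfsg.spToMat m F A *ᵥ (Pi.single (Sum.inl j) (1 : F)) ∈ flagSub m F k :=
            flagSub_mono m (F := F) (show j ≤ k from not_lt.1 hj) (h j).1
          rw [Matrix.mulVec_single_one] at h1
          rw [op_smul_eq_smul]
          exact Submodule.smul_mem _ _ h1
      · rw [hw.2 j]; simp)
    exact key

/-- coordinatewise description of triangular frames -/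
def triP (m : ℕ) (F : Type*) [Field F] (i : Fin m) : Fin m ⊕ Fin m → F → Prop
  | Sum.inl j, x => ((i : ℕ) < (j : ℕ) → x = 0) ∧ (j = i → x ≠ 0)
  | Sum.inr _, x => x = 0

lemma mem_triFrames_iff (m : ℕ) (f : Fin m → Fin m ⊕ Fin m → F) :
    f ∈ triFrames m F ↔ ∀ i j, triP m F i j (f i j) := by
  constructor
  · intro h i j
    rcases j with j | j
    · exact ⟨fun hj => (h i).1.1 j hj, fun hj => hj ▸ (h i).2⟩
    · exact (h i).1.2 j
  · intro h i
    exact ⟨⟨fun j hj => (h i (Sum.inl j)).1 hj, fun j => h i (Sum.inr j)⟩, (h i (Sum.inl i)).2 rfl⟩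

lemma card_triP_inl [Fintype F] (m : ℕ) (i j : Fin m) :
    Nat.card {x : F // triP m F i (Sum.inl j) x} =
      (if j < i then Fintype.card F else 1) * (if j = i then Fintype.card F - 1 else 1) := by
  classical
  rcases lt_trichotomy j i with h | h | h
  · rw [if_pos h, if_neg h.ne, mul_one, ← Nat.card_eq_fintype_card]
    refine Nat.card_congr (Equiv.subtypeUnivEquiv ?_)
    intro x
    exact ⟨fun h' => absurd h' (by have : (j : ℕ) < i := h; omega), fun h' => absurd h' h.ne⟩
  · subst h
    rw [if_neg (lt_irrefl _), if_pos rfl, one_mul, ← Fintype.card_units, ← Nat.card_eq_fintype_card]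
    refine Nat.card_congr ((Equiv.subtypeEquivRight ?_).trans unitsEquivNeZero.symm)
    intro x
    exact ⟨fun h => h.2 rfl, fun h => ⟨fun h' => absurd h' (lt_irrefl _), fun _ => h⟩⟩
  · rw [if_neg (not_lt.2 h.le), if_neg h.ne', mul_one]
    have : Unique {x : F // triP m F i (Sum.inl j) x} :=
      { default := ⟨0, fun _ => rfl, fun h' => absurd h' h.ne'⟩
        uniq := fun x => Subtype.ext (x.2.1 h) }
    exact Nat.card_unique

lemma card_triP_inr (m : ℕ) (i j : Fin m) : Nat.card {x : F // triP m F i (Sum.inr j) x} = 1 := by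
  have : Unique {x : F // triP m F i (Sum.inr j) x} :=
    { default := ⟨0, rfl⟩
      uniq := fun x => Subtype.ext x.2 }
  exact Nat.card_unique

lemma card_triFrames [Fintype F] (m : ℕ) :
    Nat.card (triFrames m F) = Fintype.card F ^ (m * (m - 1) / 2) * (Fintype.card F - 1) ^ m := by
  classical
  have e : triFrames m F ≃ ∀ i : Fin m, ∀ j : Fin m ⊕ Fin m, {x : F // triP m F i j x} :=
    (Equiv.subtypeEquivRight (mem_triFrames_iff m)).trans
      ((Equiv.subtypePiEquivPi (p := fun i (g : Fin m ⊕ Fin m → F) => ∀ j, triP m F i j (g j))).trans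
        (Equiv.piCongrRight fun i => Equiv.subtypePiEquivPi))
  rw [Nat.card_congr e, Nat.card_pi]
  have h1 : ∀ i : Fin m, Nat.card (∀ j : Fin m ⊕ Fin m, {x : F // triP m F i j x}) =
      Fintype.card F ^ (i : ℕ) * (Fintype.card F - 1) := by
    intro i
    rw [Nat.card_pi, Fintype.prod_sum_type]
    simp only [card_triP_inl, card_triP_inr, Finset.prod_const_one, mul_one]
    rw [Finset.prod_mul_distrib, Finset.prod_ite_eq' Finset.univ i, if_pos (Finset.mem_univ i),
      Finset.prod_ite, Finset.prod_const, Finset.prod_const_one, mul_one]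
    have h2 : (Finset.univ.filter (fun x : Fin m => x < i)).card = (i : ℕ) := by
      have : Finset.univ.filter (fun x : Fin m => x < i) = Finset.Iio i := by
        ext x; simp
      rw [this, Fin.card_Iio]
    rw [h2]
  simp only [h1]
  rw [Finset.prod_mul_distrib, Finset.prod_const, Finset.card_univ, Fintype.card_fin,
    Finset.prod_pow_eq_pow_sum, Fin.sum_univ_eq_sum_range (fun i => i) m, Finset.sum_range_id]

theorem card_sp_borel [Fintype F] (m : ℕ) :
    Nat.card (⨅ k : Fin m, Cfsg.stabilizing (Cfsg.spToMat m F)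
      (flagSub m F k : Set (Fin m ⊕ Fin m → F)) : Subgroup (Matrix.symplecticGroup (Fin m) F)) =
      Fintype.card F ^ (m ^ 2) * (Fintype.card F - 1) ^ m := by
  classical
  have : Finite (Matrix.symplecticGroup (Fin m) F) := Subtype.finite
  have hf₀ : (fun i : Fin m => (Pi.single (Sum.inl i) (1 : F) : Fin m ⊕ Fin m → F)) ∈
      triFrames m F := by
    have := (mem_iInf_flag_iff m (1 : Matrix.symplecticGroup (Fin m) F)).1 (Subgroup.one_mem _)
    simpa only [map_one, Matrix.one_mulVec] using this
  have h := card_mul_card_frames (Cfsg.spToMat m F)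
    (fun i : Fin m => (Pi.single (Sum.inl i) (1 : F) : Fin m ⊕ Fin m → F))
    (tiFrames (sympB m F) m) (by
      intro f
      constructor
      · intro hf
        have h0 := triFrames_subset m hf₀
        exact exists_sp_of_frames m _ f h0.1 hf.1 (by
          intro i j
          rw [← sympB_apply, ← sympB_apply, h0.2, hf.2])
      · rintro ⟨A, rfl⟩
        exact sp_smul_mem_tiFrames m m A _ (triFrames_subset m hf₀))
    _ (triFrames m F) (triFrames_subset m) (mem_iInf_flag_iff m)
  have hq : 2 ≤ Fintype.card F := Fintype.one_lt_card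
  rw [card_tiFrames _ (sympB_nondegenerate m) (sympB_isAlt m), finrank_symp, card_triFrames,
    card_symplecticGroup, ← sp_parabolic_arith _ m m (by omega) le_rfl] at h
  have hpos : 0 < ∏ i : Fin m, (Fintype.card F ^ (2 * m - (i : ℕ)) - Fintype.card F ^ (i : ℕ)) := by
    apply Finset.prod_pos
    intro i _
    have : Fintype.card F ^ (i : ℕ) < Fintype.card F ^ (2 * m - (i : ℕ)) :=
      Nat.pow_lt_pow_right (by omega) (by have := i.2; omega)
    omega
  apply Nat.eq_of_mul_eq_mul_right hpos
  rw [h]
  simp only [Nat.sub_self, mul_zero, add_zero, Finset.range_zero, Finset.prod_empty, mul_one]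
  have e1 : m * (m - 1) / 2 + m * (m + 1) / 2 = m ^ 2 := by
    rcases m with _ | k
    · simp
    · rw [tri_succ, Nat.add_sub_cancel, mul_comm (k + 1) k]
      have h2 : 2 ∣ k * (k + 1) := (Nat.even_mul_succ_self k).two_dvd
      obtain ⟨t, ht⟩ := h2
      rw [ht, Nat.mul_div_cancel_left _ (by norm_num)]
      have : (k + 1) ^ 2 = k * (k + 1) + (k + 1) := by ring
      rw [this, ht]; ring
  rw [← e1, pow_add]
  simp
  ring

end Cfsg.Agent.Lib.Helper5
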