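import Mathlib
import Cfsg.Agent.Lib.Helper5.SpParabolic

set_option autoImplicit false

namespace Cfsg.Agent.Lib.Helper5

open Matrix Module Cfsg.Agent.Lib.Helper13 Cfsg.Agent.Lib.Helper94

variable {F V : Type*} [Field F] [AddCommGroup V] [Module F V]

lemma ti_span_iff (B : LinearMap.BilinForm F V) {κ : Type*} (f : κ → V) :
    (∀ u ∈ Submodule.span F (Set.range f), ∀ v ∈ Submodule.span F (Set.range f), B u v = 0) ↔
      ∀ i j, B (f i) (f j) = 0 := by
  constructor
  · intro h i j
    exact h _ (Submodule.subset_span ⟨i, rfl⟩) _ (Submodule.subset_span ⟨j, rfl⟩)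
  · intro h u hu v hv
    have h1 : Submodule.span F (Set.range f) ≤ B.orthogonal (Submodule.span F (Set.range f)) := by
      rw [Submodule.span_le]
      rintro _ ⟨i, rfl⟩
      exact (mem_orthogonal_span_range B _ _).2 (fun j => h j i)
    exact (LinearMap.BilinForm.mem_orthogonal_iff.1 (h1 hv)) u hu

/-- number of totally isotropic `k`-subspaces of a symplectic space -/
theorem card_ti_subspaces_mul [Fintype F] [FiniteDimensional F V] (B : LinearMap.BilinForm F V)
    (hB : B.Nondegenerate) (hA : B.IsAlt) (k : ℕ) :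
    Nat.card {W : Submodule F V // finrank F W = k ∧ ∀ u ∈ W, ∀ v ∈ W, B u v = 0} *
      ∏ i : Fin k, (Fintype.card F ^ k - Fintype.card F ^ (i : ℕ)) =
      ∏ i : Fin k, (Fintype.card F ^ (finrank F V - (i : ℕ)) - Fintype.card F ^ (i : ℕ)) := by
  have : Finite V := Module.finite_of_finite F
  rw [← card_frames_eq_card_subspaces_mul k (fun W => ∀ u ∈ W, ∀ v ∈ W, B u v = 0),
    ← card_tiFrames B hB hA k]
  refine Nat.card_congr (Equiv.subtypeEquivRight fun f => ?_)
  rw [ti_span_iff]
  rfl

/-- number of totally isotropic `2`-subspaces through a given vector -/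
theorem card_ti_lines_through_mul [Fintype F] [FiniteDimensional F V] (B : LinearMap.BilinForm F V)
    (hB : B.Nondegenerate) (hA : B.IsAlt) (v : V) (hv : v ≠ 0) :
    Nat.card {W : Submodule F V // finrank F W = 2 ∧ v ∈ W ∧ ∀ u ∈ W, ∀ w ∈ W, B u w = 0} *
      (Fintype.card F ^ 2 - Fintype.card F) =
      Fintype.card F ^ (finrank F V - 1) - Fintype.card F := by
  classical
  have : Finite V := Module.finite_of_finite F
  have : Finite (Submodule F V) := Finite.of_injective (fun W => (W : Set V)) SetLike.coe_injective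
  have hfv : finrank F (Submodule.span F {v}) = 1 := finrank_span_singleton hv
  have hcv : Nat.card (Submodule.span F {v}) = Fintype.card F := by
    rw [Module.natCard_eq_pow_finrank (K := F) (V := Submodule.span F {v}), hfv, pow_one,
      Nat.card_eq_fintype_card]
  have hvo : Submodule.span F {v} ≤ B.orthogonal (Submodule.span F {v}) := by
    rw [Submodule.span_le, Set.singleton_subset_iff]
    rw [SetLike.mem_coe, LinearMap.BilinForm.mem_orthogonal_iff]
    intro n hn
    obtain ⟨a, rfl⟩ := Submodule.mem_span_singleton.1 hn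
    change B (a • v) v = 0
    rw [map_smul, LinearMap.smul_apply, hA v, smul_zero]
  have hT : Nat.card {w : V // w ∈ B.orthogonal (Submodule.span F {v}) ∧ w ∉ Submodule.span F {v}} =
      Fintype.card F ^ (finrank F V - 1) - Fintype.card F := by
    rw [card_sdiff_submodule _ _ hvo, hcv,
      Module.natCard_eq_pow_finrank (K := F) (V := B.orthogonal (Submodule.span F {v})),
      LinearMap.BilinForm.finrank_orthogonal hB, hfv, Nat.card_eq_fintype_card]
  rw [← hT]
  have hli : ∀ w : V, w ∉ Submodule.span F {v} → LinearIndependent F ![w, v] := by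
    intro w hw
    refine linearIndependent_finCons.2 ⟨?_, ?_⟩
    · have : (![v] : Fin 1 → V) = fun _ => v := by ext i; simp
      rw [this]
      exact LinearIndependent.of_subsingleton 0 hv
    · simpa using hw
  let π : {w : V // w ∈ B.orthogonal (Submodule.span F {v}) ∧ w ∉ Submodule.span F {v}} →
      {W : Submodule F V // finrank F W = 2 ∧ v ∈ W ∧ ∀ u ∈ W, ∀ w ∈ W, B u w = 0} :=
    fun w => ⟨Submodule.span F (Set.range ![w.1, v]), by
        rw [finrank_span_eq_card (hli w.1 w.2.2)]; simp,
      Submodule.subset_span ⟨1, rfl⟩, by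
        rw [ti_span_iff]
        have h1 : B v w.1 = 0 :=
          LinearMap.BilinForm.mem_orthogonal_iff.1 w.2.1 v (Submodule.mem_span_singleton_self v)
        have h2 : B w.1 v = 0 := hA.isRefl _ _ h1
        intro i j
        fin_cases i <;> fin_cases j
        · exact hA _
        · exact h2
        · exact h1
        · exact hA _⟩
  have := Fintype.ofFinite
    {W : Submodule F V // finrank F W = 2 ∧ v ∈ W ∧ ∀ u ∈ W, ∀ w ∈ W, B u w = 0}
  rw [Nat.card_congr (Equiv.sigmaFiberEquiv π).symm, Nat.card_sigma]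
  have hfib : ∀ W, Nat.card {w // π w = W} = Fintype.card F ^ 2 - Fintype.card F := by
    intro W
    have hvW : Submodule.span F {v} ≤ W.1 := by
      rw [Submodule.span_le, Set.singleton_subset_iff]; exact W.2.2.1
    have h1 := card_sdiff_submodule W.1 _ hvW
    rw [hcv, Module.natCard_eq_pow_finrank (K := F) (V := W.1), W.2.1,
      Nat.card_eq_fintype_card (α := F)] at h1
    rw [← h1]
    refine Nat.card_congr ⟨fun w => ⟨w.1.1, ?_, w.1.2.2⟩, fun w => ⟨⟨w.1, ?_, w.2.2⟩, ?_⟩,
      fun w => rfl, fun w => rfl⟩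
    · have h2 := congrArg Subtype.val w.2
      have h3 : w.1.1 ∈ Submodule.span F (Set.range ![w.1.1, v]) := Submodule.subset_span ⟨0, rfl⟩
      exact h2 ▸ h3
    · rw [LinearMap.BilinForm.mem_orthogonal_iff]
      intro n hn
      exact W.2.2.2 n (hvW hn) w.1 w.2.1
    · apply Subtype.ext
      change Submodule.span F (Set.range ![w.1, v]) = W.1
      apply Submodule.eq_of_le_of_finrank_eq
      · rw [Submodule.span_le]
        rintro _ ⟨i, rfl⟩
        fin_cases i
        · exact w.2.1
        · exact W.2.2.1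
      · rw [finrank_span_eq_card (hli w.1 w.2.2), W.2.1]; simp
  simp only [hfib]
  rw [Finset.sum_const, Finset.card_univ, smul_eq_mul, Nat.card_eq_fintype_card]

theorem sp4_quadrangle {F : Type*} [Field F] [Fintype F] :
    Nat.card {W : Submodule F (Fin 2 ⊕ Fin 2 → F) // finrank F W = 2 ∧
      ∀ u ∈ W, ∀ v ∈ W, Cfsg.sympForm 2 F u v = 0} = (Fintype.card F + 1) * (Fintype.card F ^ 2 + 1) ∧
    ∀ v : Fin 2 ⊕ Fin 2 → F, v ≠ 0 → Nat.card {W : Submodule F (Fin 2 ⊕ Fin 2 → F) //
      finrank F W = 2 ∧ v ∈ W ∧ ∀ u ∈ W, ∀ w ∈ W, Cfsg.sympForm 2 F u w = 0} = Fintype.card F + 1 := by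
  have hq : 2 ≤ Fintype.card F := Fintype.one_lt_card
  obtain ⟨k, hk⟩ : ∃ k, Fintype.card F = k + 2 := ⟨Fintype.card F - 2, by omega⟩
  constructor
  · have h := card_ti_subspaces_mul (sympB 2 F) (sympB_nondegenerate 2) (sympB_isAlt 2) 2
    simp only [sympB_apply, finrank_symp, Fin.prod_univ_two, Fin.val_zero, Fin.val_one, pow_zero,
      pow_one] at h
    rw [hk] at h ⊢
    have e1 : (k + 2) ^ 2 - 1 = (k + 1) * (k + 3) := by
      have : (k + 2) ^ 2 = (k + 1) * (k + 3) + 1 := by ring
      omega
    have e2 : (k + 2) ^ 2 - (k + 2) = (k + 1) * (k + 2) := by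
      have : (k + 2) ^ 2 = (k + 1) * (k + 2) + (k + 2) := by ring
      omega
    have e3 : (k + 2) ^ (2 * 2 - 0) - 1 = (k + 1) * (k + 3) * ((k + 2) ^ 2 + 1) := by
      have : (k + 2) ^ (2 * 2 - 0) = (k + 1) * (k + 3) * ((k + 2) ^ 2 + 1) + 1 := by
        norm_num; ring
      omega
    have e4 : (k + 2) ^ (2 * 2 - 1) - (k + 2) = (k + 1) * (k + 2) * (k + 3) := by
      have : (k + 2) ^ (2 * 2 - 1) = (k + 1) * (k + 2) * (k + 3) + (k + 2) := by
        norm_num; ring
      omega
    rw [e1, e2, e3, e4] at h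
    have hpos : 0 < (k + 1) * (k + 3) * ((k + 1) * (k + 2)) := by positivity
    apply Nat.eq_of_mul_eq_mul_right hpos
    rw [h]; ring
  · intro v hv
    have h := card_ti_lines_through_mul (sympB 2 F) (sympB_nondegenerate 2) (sympB_isAlt 2) v hv
    simp only [sympB_apply, finrank_symp] at h
    rw [hk] at h ⊢
    have e2 : (k + 2) ^ 2 - (k + 2) = (k + 1) * (k + 2) := by
      have : (k + 2) ^ 2 = (k + 1) * (k + 2) + (k + 2) := by ring
      omega
    have e4 : (k + 2) ^ (2 * 2 - 1) - (k + 2) = (k + 1) * (k + 2) * (k + 3) := by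
      have : (k + 2) ^ (2 * 2 - 1) = (k + 1) * (k + 2) * (k + 3) + (k + 2) := by
        norm_num; ring
      omega
    rw [e2, e4] at h
    have hpos : 0 < (k + 1) * (k + 2) := by positivity
    apply Nat.eq_of_mul_eq_mul_right hpos
    rw [h]; ring

end Cfsg.Agent.Lib.Helper5
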