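import Mathlib
import Cfsg.Agent.Lib.Helper5.SpEmbed

set_option autoImplicit false

namespace Cfsg.Agent.Lib.Helper5

open Matrix Module

local notation "K" => ZMod 2

/-- the two linear conditions -/
def heartL (N : ℕ) (l : Fin N) : (Fin N → K) →ₗ[K] K × K where
  toFun x := (∑ i, x i, x l)
  map_add' x y := by simp [Finset.sum_add_distrib]
  map_smul' c x := by simp [Finset.mul_sum]

/-- a model of the heart of the permutation module -/
def heart (N : ℕ) (l : Fin N) : Submodule K (Fin N → K) := LinearMap.ker (heartL N l)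

lemma mem_heart {N : ℕ} {l : Fin N} {x : Fin N → K} : x ∈ heart N l ↔ ∑ i, x i = 0 ∧ x l = 0 := by
  rw [heart, LinearMap.mem_ker]
  exact Prod.ext_iff

lemma pair_mem_heart {N : ℕ} {l a b : Fin N} (ha : a ≠ l) (hb : b ≠ l) :
    (Pi.single a 1 + Pi.single b 1 : Fin N → K) ∈ heart N l := by
  rw [mem_heart]
  constructor
  · simp only [Pi.add_apply, Finset.sum_add_distrib, Finset.sum_pi_single', Finset.mem_univ, if_true]
    decide
  · simp [Pi.single_apply, ha.symm, hb.symm]

lemma finrank_heart {N : ℕ} (l a : Fin N) (ha : a ≠ l) : finrank K (heart N l) + 2 = N := by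
  have h1 := LinearMap.finrank_range_add_finrank_ker (heartL N l)
  have h2 : LinearMap.range (heartL N l) = ⊤ := by
    rw [LinearMap.range_eq_top]
    rintro ⟨s, t⟩
    refine ⟨Pi.single l t + Pi.single a (s + t), ?_⟩
    change (∑ i, (Pi.single l t + Pi.single a (s + t) : Fin N → K) i,
      (Pi.single l t + Pi.single a (s + t) : Fin N → K) l) = (s, t)
    simp only [Pi.add_apply, Finset.sum_add_distrib, Finset.sum_pi_single', Finset.mem_univ, if_true]
    ext
    · simp only
      have : t + t = 0 := CharTwo.add_self_eq_zero t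
      linear_combination this
    · simp [Pi.single_apply, ha.symm]
  rw [h2, finrank_top, Module.finrank_prod, Module.finrank_self, Module.finrank_fin_fun] at h1
  change _ + finrank K (heart N l) = _ at h1
  omega

/-- the dot product on the heart -/
noncomputable def heartB (N : ℕ) (l : Fin N) : LinearMap.BilinForm K (heart N l) :=
  (Matrix.toBilin' (1 : Matrix (Fin N) (Fin N) K)).restrict (heart N l)

lemma heartB_apply {N : ℕ} {l : Fin N} (x y : heart N l) : heartB N l x y = ∑ i, x.1 i * y.1 i := by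
  simp [heartB, Matrix.toBilin'_apply', dotProduct]

lemma zmod2_mul_self (a : K) : a * a = a := by
  revert a; decide

lemma heartB_isAlt (N : ℕ) (l : Fin N) : (heartB N l).IsAlt := by
  intro x
  rw [heartB_apply]
  simp only [zmod2_mul_self]
  exact (mem_heart.1 x.2).1

lemma heartB_nondegenerate {N : ℕ} (hN : Even N) (l a : Fin N) (ha : a ≠ l) :
    (heartB N l).Nondegenerate := by
  have key : ∀ u : heart N l, (∀ v, heartB N l u v = 0) → u = 0 := by
    intro u hu
    have h1 : ∀ i, i ≠ l → u.1 i = u.1 a := by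
      intro i hi
      have := hu ⟨_, pair_mem_heart hi ha⟩
      rw [heartB_apply] at this
      simp only [Pi.add_apply, mul_add, Finset.sum_add_distrib, Pi.single_apply, mul_ite, mul_one,
        mul_zero, Finset.sum_ite_eq', Finset.mem_univ, if_true] at this
      have h2 : u.1 a + u.1 a = 0 := CharTwo.add_self_eq_zero _
      linear_combination this - h2
    have h2 : ∀ i, u.1 i = u.1 a - (if i = l then u.1 a else 0) := by
      intro i
      by_cases hi : i = l
      · rw [if_pos hi, hi, (mem_heart.1 u.2).2]; ring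
      · rw [if_neg hi, h1 i hi]; ring
    have h3 := (mem_heart.1 u.2).1
    rw [Finset.sum_congr rfl (fun i _ => h2 i), Finset.sum_sub_distrib, Finset.sum_const,
      Finset.sum_ite_eq' Finset.univ l, if_pos (Finset.mem_univ l), Finset.card_univ,
      Fintype.card_fin] at h3
    obtain ⟨t, rfl⟩ := hN
    have h4 : (t + t) • u.1 a = 0 := by
      rw [add_smul]; exact CharTwo.add_self_eq_zero _
    rw [h4] at h3
    have h5 : u.1 a = 0 := by linear_combination -h3
    apply Subtype.ext
    funext i
    rw [h2 i, h5]; simp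
  constructor
  · exact key
  · intro v hv
    apply key
    intro u
    have := hv u
    rw [heartB_apply] at this ⊢
    rw [← this]
    exact Finset.sum_congr rfl fun i _ => mul_comm _ _

/-- the twisted permutation action on the heart -/
def heartAct {N : ℕ} (hN : Even N) (l : Fin N) (σ : Equiv.Perm (Fin N)) : Module.End K (heart N l) where
  toFun x := ⟨fun i => x.1 (σ⁻¹ i) + x.1 (σ⁻¹ l), by
    rw [mem_heart]
    constructor
    · rw [Finset.sum_add_distrib, Equiv.sum_comp σ⁻¹ (fun i => x.1 i), (mem_heart.1 x.2).1,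
        Finset.sum_const, Finset.card_univ, Fintype.card_fin]
      obtain ⟨t, rfl⟩ := hN
      rw [add_smul, zero_add]; exact CharTwo.add_self_eq_zero _
    · exact CharTwo.add_self_eq_zero _⟩
  map_add' x y := by
    apply Subtype.ext
    funext i
    simp only [Submodule.coe_add, Pi.add_apply]
    ring
  map_smul' c x := by
    apply Subtype.ext
    funext i
    simp only [Submodule.coe_smul, Pi.smul_apply, smul_eq_mul, RingHom.id_apply]
    ring

lemma heartAct_apply {N : ℕ} (hN : Even N) (l : Fin N) (σ : Equiv.Perm (Fin N)) (x : heart N l)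
    (i : Fin N) : (heartAct hN l σ x).1 i = x.1 (σ⁻¹ i) + x.1 (σ⁻¹ l) := rfl

/-- the action as a monoid hom -/
def heartRep {N : ℕ} (hN : Even N) (l : Fin N) : Equiv.Perm (Fin N) →* Module.End K (heart N l) where
  toFun := heartAct hN l
  map_one' := by
    apply LinearMap.ext
    intro x
    apply Subtype.ext
    funext i
    rw [heartAct_apply]
    simp [(mem_heart.1 x.2).2]
  map_mul' σ τ := by
    apply LinearMap.ext
    intro x
    apply Subtype.ext
    funext i
    rw [Module.End.mul_apply, heartAct_apply, heartAct_apply, heartAct_apply, heartAct_apply]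
    simp only [_root_.mul_inv_rev, Equiv.Perm.coe_mul, Function.comp_apply]
    have := CharTwo.add_self_eq_zero (x.1 (τ⁻¹ l))
    linear_combination -this

lemma heartRep_preserves {N : ℕ} (hN : Even N) (l : Fin N) (σ : Equiv.Perm (Fin N))
    (x y : heart N l) : heartB N l (heartRep hN l σ x) (heartRep hN l σ y) = heartB N l x y := by
  rw [heartB_apply, heartB_apply]
  change ∑ i, (x.1 (σ⁻¹ i) + x.1 (σ⁻¹ l)) * (y.1 (σ⁻¹ i) + y.1 (σ⁻¹ l)) = _
  have e : ∀ i, (x.1 (σ⁻¹ i) + x.1 (σ⁻¹ l)) * (y.1 (σ⁻¹ i) + y.1 (σ⁻¹ l)) =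
      x.1 (σ⁻¹ i) * y.1 (σ⁻¹ i) + x.1 (σ⁻¹ i) * y.1 (σ⁻¹ l) + x.1 (σ⁻¹ l) * y.1 (σ⁻¹ i) +
        x.1 (σ⁻¹ l) * y.1 (σ⁻¹ l) := fun i => by ring
  simp only [e, Finset.sum_add_distrib, ← Finset.sum_mul, ← Finset.mul_sum]
  rw [Equiv.sum_comp σ⁻¹ (fun i => x.1 i * y.1 i), Equiv.sum_comp σ⁻¹ (fun i => x.1 i),
    Equiv.sum_comp σ⁻¹ (fun i => y.1 i), (mem_heart.1 x.2).1, (mem_heart.1 y.2).1, Finset.sum_const,
    Finset.card_univ, Fintype.card_fin]
  obtain ⟨t, rfl⟩ := hN
  rw [add_smul, CharTwo.add_self_eq_zero (t • x.1 (σ⁻¹ l))]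
  ring

lemma exists_notMem_fin {N : ℕ} (s : Finset (Fin N)) (h : s.card < N) : ∃ t, t ∉ s := by
  by_contra hcon
  push Not at hcon
  have : s = Finset.univ := Finset.eq_univ_iff_forall.2 hcon
  rw [this, Finset.card_univ, Fintype.card_fin] at h
  exact lt_irrefl _ h

lemma heartRep_injective {N : ℕ} (hN : Even N) (h6 : 5 ≤ N) (l : Fin N) :
    Function.Injective (heartRep hN l) := by
  classical
  rw [injective_iff_map_eq_one]
  intro σ hσ
  have h1 : ∀ x : heart N l, ∀ i, x.1 (σ⁻¹ i) + x.1 (σ⁻¹ l) = x.1 i := by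
    intro x i
    have := congrArg (fun f : Module.End K (heart N l) => (f x).1 i) hσ
    exact this
  have hl : σ⁻¹ l = l := by
    by_contra hp
    set p := σ⁻¹ l with hpdef
    obtain ⟨b, hb⟩ := exists_notMem_fin ({p, l} : Finset (Fin N))
      (lt_of_le_of_lt Finset.card_le_two (by omega))
    simp only [Finset.mem_insert, Finset.mem_singleton, not_or] at hb
    obtain ⟨t, ht⟩ := exists_notMem_fin ({p, b, σ p, σ b} : Finset (Fin N))
      (lt_of_le_of_lt Finset.card_le_four (by omega))
    simp only [Finset.mem_insert, Finset.mem_singleton, not_or] at ht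
    have h2 := h1 ⟨_, pair_mem_heart hp hb.2⟩ t
    have e1 : σ⁻¹ t ≠ p := by
      intro h; apply ht.2.2.1; rw [← h]; simp
    have e2 : σ⁻¹ t ≠ b := by
      intro h; apply ht.2.2.2; rw [← h]; simp
    simp only [Pi.add_apply, Pi.single_apply, e1, e2, ht.1, ht.2.1, if_false, if_true,
      Ne.symm hb.1] at h2
    revert h2; decide
  have h2 : ∀ x : heart N l, ∀ i, x.1 (σ⁻¹ i) = x.1 i := by
    intro x i
    have := h1 x i
    rw [hl, (mem_heart.1 x.2).2, add_zero] at this
    exact this
  have h3 : σ⁻¹ = 1 := by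
    ext a
    congr 1
    change σ⁻¹ a = a
    by_cases hal : a = l
    · rw [hal, hl]
    · by_contra ha'
      have ha'l : σ⁻¹ a ≠ l := by
        intro h
        apply hal
        apply σ⁻¹.injective
        rw [h, hl]
      obtain ⟨b, hb⟩ := exists_notMem_fin ({a, σ⁻¹ a, l} : Finset (Fin N))
        (lt_of_le_of_lt Finset.card_le_three (by omega))
      simp only [Finset.mem_insert, Finset.mem_singleton, not_or] at hb
      have h4 := h2 ⟨_, pair_mem_heart hal hb.2.2⟩ a
      simp only [Pi.add_apply, Pi.single_apply, ha', Ne.symm hb.1, Ne.symm hb.2.1, if_false,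
        if_true] at h4
      revert h4; decide
  exact inv_eq_one.1 h3

theorem exists_perm_embed_sp (n : ℕ) (hn : 3 ≤ n) :
    ∃ f : Equiv.Perm (Fin (2 * n)) →* Matrix.symplecticGroup (Fin (n - 1)) (ZMod 2),
      Function.Injective f := by
  have hN : Even (2 * n) := even_two_mul n
  let l : Fin (2 * n) := ⟨0, by omega⟩
  let a : Fin (2 * n) := ⟨1, by omega⟩
  have ha : a ≠ l := by
    intro h
    have := congrArg Fin.val h
    simp [a, l] at this
  refine exists_injective_hom_sp (heartB (2 * n) l) (heartB_nondegenerate hN l a ha)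
    (heartB_isAlt _ l) (n - 1) ?_ (heartRep hN l) (heartRep_preserves hN l)
    (heartRep_injective hN (by omega) l)
  have := finrank_heart l a ha
  omega

end Cfsg.Agent.Lib.Helper5
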